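/-
The centraliser of a product of four commuting transpositions in `Fi₂₄'`.
-/
import Cfsg.Agent.Cov.D24
import Cfsg.Agent.Fi3.C24

set_option autoImplicit false
set_option linter.unusedSectionVars false

namespace CA.Cov

open Cfsg Subgroup CA.Fi CA.TC CA.Loc Cfsg.Agent.Unit
open scoped commutatorElement

variable {G : Type*} [Group G] {D : Set G} {e : ℕ → G}

theorem eq_or_eq_of_three [Finite G] {Q K N : Subgroup G} (h1 : Q ≤ K) (h2 : K ≤ N) (h : Nat.card N = 3 * Nat.card Q) :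
    K = Q ∨ K = N := by
  obtain ⟨a, ha⟩ := card_dvd_of_le h1
  obtain ⟨b, hb⟩ := card_dvd_of_le h2
  have : a * b = 3 := Nat.eq_of_mul_eq_mul_left (Nat.card_pos (α := Q)) (by rw [← mul_assoc, ← ha, ← hb, h, mul_comm])
  rcases (Nat.dvd_prime Nat.prime_three).1 ⟨b, this.symm⟩ with rfl | rfl
  exacts [Or.inl (eq_of_le_of_card_ge h1 (by omega)).symm, Or.inr (eq_of_le_of_card_ge h2 (by omega))]

theorem exists_stab {z : G} (hz : z * z = 1) (x : G) :
    ∃ H : Subgroup G, ∀ c, c ∈ H ↔ Commute c z ∧ (c * x * c⁻¹ = x ∨ c * x * c⁻¹ = x * z) := by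
  have k : ∀ c, Commute c z → c * (x * z) * c⁻¹ = c * x * c⁻¹ * z := fun c hc => by
    rw [mul_assoc c, mul_assoc x, hc.symm.inv_right.eq]; simp only [mul_assoc]
  refine ⟨⟨⟨⟨{c | Commute c z ∧ (c * x * c⁻¹ = x ∨ c * x * c⁻¹ = x * z)}, fun {a b} ha hb => ⟨ha.1.mul_left hb.1, ?_⟩⟩,
    Commute.one_left z, Or.inl (by simp)⟩, fun {a} ha => ⟨ha.1.inv_left, ?_⟩⟩, fun _ => Iff.rfl⟩
  · rw [show a * b * x * (a * b)⁻¹ = a * (b * x * b⁻¹) * a⁻¹ by group]
    rcases hb.2 with u | u <;> rw [u]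
    · exact ha.2
    · rw [k a ha.1]
      exact ha.2.symm.imp (fun v => by rw [v, mul_assoc, hz, mul_one]) fun v => by rw [v]
  · refine ha.2.imp (fun v => conj_eq_iff_commute.2 (conj_eq_iff_commute.1 v).inv_left) fun v => ?_
    have : a * (x * z) * a⁻¹ = x := by rw [k a ha.1, v, mul_assoc, hz, mul_one]
    conv_lhs => rw [← this]
    group

theorem cl0123 (h : Real X24 D e) : Fi3.CL D [e 0, e 1, e 2, e 3] := Fi3.chkCL_cl h (l := [0, 1, 2, 3]) (by decide +kernel)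

theorem real504 (h : Real X24 D e) : Real X504 {y | y ∈ D ∧ Commute (wd e [0, 1, 2, 3]) y} (fun p => e (em504 p)) ∧
    ∀ p < X504.n, em504 p < X24.n := by
  refine real_pull h ok504 (allLt_spec emb504) (fun p hp => ?_) fun y hy => ?_
  · have := allLt_spec fix504 p hp
    rw [frc_eq, band_iff, blt_iff, beq_iff] at this
    exact ⟨h.mem _ this.1, conj_eq_iff_commute.1 ((opl_conj h.toQReal (by decide) this.1).trans (congrArg e this.2))⟩
  · obtain ⟨q, hq, rfl⟩ := h.surj y hy.1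
    have := z504 q hq
    rw [chkZ24, bor_iff, frc_eq, frc_eq, bne_iff] at this
    refine (anyLt_spec (this.resolve_left fun c => c ?_)).imp fun p b => ⟨b.1, congrArg e (beq_iff.1 b.2)⟩
    have a1 := h.ok.act_lt 10 (by decide) q hq
    have a2 := h.ok.act_lt 0 (by decide) q hq
    refine h.inj _ (h.ok.act_lt 12 (by decide) _ a1) _ (h.ok.act_lt 8 (by decide) _ a2) ?_
    have u := ((cl0123 h).sub (l' := [e 0, e 1]) (by simp)).sq h.tt24
    have v := conj_eq_iff_commute.2 hy.2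
    rw [← h.conj 12 (by decide) _ a1, ← h.conj 10 (by decide) _ hq, ← h.conj 8 (by decide) _ a2,
      ← h.conj 0 (by decide) _ hq, show X24.gen e 12 = e 0 from congrArg e (by decide +kernel),
      show X24.gen e 10 = e 1 from congrArg e (by decide +kernel),
      show X24.gen e 8 = e 2 from congrArg e (by decide +kernel),
      show X24.gen e 0 = e 3 from congrArg e (by decide +kernel)]
    simp only [wd_cons, wd_nil, List.prod_cons, List.prod_nil] at u v
    calc _ = e 0 * e 1 * (e 0 * (e 1 * (e 2 * (e 3 * 1))) * e q * (e 0 * (e 1 * (e 2 * (e 3 * 1))))⁻¹) * (e 0 * e 1)⁻¹ := by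
          rw [v]; group
      _ = e 0 * (e 1 * 1) * (e 0 * (e 1 * 1)) * (e 2 * (e 3 * e q * (e 3)⁻¹) * (e 2)⁻¹) *
          (e 0 * (e 1 * 1) * (e 0 * (e 1 * 1)))⁻¹ := by group
      _ = _ := by rw [u]; group

theorem card_cent24 [Finite G] (h : RG X24 D e) :
    Nat.card (centralizer ({wd e [0, 1, 2, 3]} : Set G)) = 321052999680 := by
  have c := cl0123 h.toReal
  have t := Fi3.tr24 h.toReal
  have c4 : Fi3.CL D [e 3, e 2, e 1, e 0] := c.perm (List.reverse_perm _).symm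
  have c3 := (Fi3.cl_cons'.1 c4).2.2.2
  have c2 := (Fi3.cl_cons'.1 c3).2.2.2
  have a1 := Fi3.card_Cl (Fi3.conjInv h) t (Fi3.cl_cons'.1 c2).2.2.2 (by simp)
  have a2 := Fi3.card_Cl (Fi3.conjInv h) t c2 (by simp)
  have a3 := Fi3.card_Cl (Fi3.conjInv h) t c3 (by simp)
  have a4 := Fi3.card_Cl (Fi3.conjInv h) t c4 (by simp)
  rw [Fi3.Cl_nil, card_top, Fi3.cl_set_nil, h.toReal.ncard, card24 h.toReal h.gen h.ctr, X24_n] at a1
  rw [show [e 0] = [] ++ [e 0] from rfl, Fi3.cl_set_cons (h.mem 0 (by decide)), Fi3.cl_set_nil,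
    (Fi3.tw24_1 h).real.ncard, X23_n, List.nil_append] at a2
  rw [← Fi3.nb_two c2, (Fi3.tw24_2 h).real.ncard, X22_n] at a3
  rw [← Fi3.nb_three c3, (Fi3.tw24_3 h).real.ncard, XU_n] at a4
  have r := (real504 h.toReal).1
  have mv : ∀ l', [e 0, e 1, e 2, e 3].Perm l' → ∃ g, Commute (wd e [0, 1, 2, 3]) g ∧
      [e 0, e 1, e 2, e 3].map (cj g) = l' := fun l' p =>
    let ⟨g, _, a⟩ := t.move c (c.perm p) p.length_eq (by simp) (c.prod_perm p); ⟨g, a⟩
  have c' := (Fi3.cl_cons'.1 c).2.2.2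
  have up : ∀ g, Commute g (wd e [0, 1, 2, 3]) → Commute g (e 0) → ∀ x ∈ [e 1, e 2, e 3], cj g x ∈ [e 1, e 2, e 3] :=
    fun g g1 g2 x hx => by
      obtain ⟨a, b⟩ := c'.cj_prod (Fi3.conjInv h) (g := g) (by simpa [wd] using (g2.inv_right.mul_right g1).symm)
      exact ((Fi3.nr24 h.toReal).uniq h.toReal.tt24 a c' (by simp) (by simp) b _).1 (List.mem_map_of_mem hx)
  obtain ⟨-, -, -, n1, n2, n3, -⟩ := Fi3.cl_three.1 c'
  have b1 := card_eq_orbit (centralizer ({wd e [0, 1, 2, 3]} : Set G)) (e 0)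
  rw [show {y | ∃ c ∈ centralizer ({wd e [0, 1, 2, 3]} : Set G), c * e 0 * c⁻¹ = y} =
    {y | y ∈ D ∧ Commute (wd e [0, 1, 2, 3]) y} from Set.ext fun y => ⟨by
      rintro ⟨g, hg, rfl⟩
      have := (mem_cent_iff.1 hg).symm
      exact ⟨h.conj_mem' g (h.mem 0 (by decide)), (this.mul_right (c.commute_prod (by simp)).symm).mul_right this.inv_right⟩,
      fun hy => by
        obtain ⟨g, hg, a⟩ := Fi3.real_tr r trans504 (e 0) ⟨h.mem 0 (by decide), (c.commute_prod (by simp)).symm⟩ y hy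
        exact ⟨g, (closure_le _).2 (fun y hy => mem_cent_iff.2 hy.2.symm) hg, a⟩⟩, r.ncard] at b1
  classical
  have b2 := card_eq_orbit' (centralizer ({wd e [0, 1, 2, 3]} : Set G) ⊓ centralizer {e 0}) (e 1) {e 1, e 2, e 3}
    (fun g hg => by simpa [cj] using up g (mem_cent_iff.1 hg.1) (mem_cent_iff.1 hg.2) (e 1) (by simp)) fun y hy => by
      obtain ⟨g, a, b⟩ := mv _ ((List.perm_cons_erase (show y ∈ [e 1, e 2, e 3] by simpa using hy)).cons _)
      simp only [List.map_cons, List.cons.injEq] at b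
      exact ⟨g, ⟨mem_cent_iff.2 a.symm, mem_cent_iff.2 (cj_eq_iff.1 b.1)⟩, b.2.1⟩
  have b3 := card_eq_orbit' (centralizer ({wd e [0, 1, 2, 3]} : Set G) ⊓ centralizer {e 0} ⊓ centralizer {e 1}) (e 2)
    {e 2, e 3} (fun g hg => by
      have := up g (mem_cent_iff.1 hg.1.1) (mem_cent_iff.1 hg.1.2) (e 2) (by simp)
      rw [List.mem_cons] at this
      simpa [cj] using this.resolve_left fun a => n1 (cj_inj ((cj_eq_iff.2 (mem_cent_iff.1 hg.2)).trans a.symm))) fun y hy => by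
      obtain ⟨g, a, b⟩ := mv _ (((List.perm_cons_erase (show y ∈ [e 2, e 3] by simpa using hy)).cons _).cons _)
      simp only [List.map_cons, List.cons.injEq] at b
      exact ⟨g, ⟨⟨mem_cent_iff.2 a.symm, mem_cent_iff.2 (cj_eq_iff.1 b.1)⟩, mem_cent_iff.2 (cj_eq_iff.1 b.2.1)⟩, b.2.2.1⟩
  have e4 : centralizer ({wd e [0, 1, 2, 3]} : Set G) ⊓ centralizer {e 0} ⊓ centralizer {e 1} ⊓ centralizer {e 2} =
      Fi3.Cl [e 3, e 2, e 1, e 0] := by
    ext g
    simp only [mem_inf, mem_cent_iff, Fi3.mem_Cl, wd_cons, wd_nil, mul_one, List.mem_cons, List.not_mem_nil, or_false,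
      forall_eq_or_imp, forall_eq, Commute.symm_iff (b := g)]
    refine ⟨fun ⟨⟨⟨u1, u2⟩, u3⟩, u4⟩ => ⟨?_, u4, u3, u2⟩,
      fun ⟨u1, u2, u3, u4⟩ => ⟨⟨⟨u4.mul_right (u3.mul_right (u2.mul_right u1)), u4⟩, u3⟩, u2⟩⟩
    simpa using u4.inv_right.mul_right (u3.inv_right.mul_right (u2.inv_right.mul_right u1))
  rw [e4, Finset.card_pair n3] at b3
  rw [Finset.card_insert_of_notMem (by simp [n1, n2]), Finset.card_pair n3] at b2
  change _ = 504 * _ at b1
  omega

theorem ker24 [Finite G] (h : RG X24 D e) {C : Subgroup G} (hC : C = centralizer {wd e [0, 1, 2, 3]}) :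
    ∃ (N : Subgroup C) (_ : N.Normal) (E : Set (C ⧸ N)) (u : ℕ → C ⧸ N) (Q : Subgroup G), RA XR6 E u ∧
      ES Q (wd e [0, 1, 2, 3]) ∧ Nat.card Q = 2 ^ 13 ∧ Q ≤ N.map C.subtype ∧ N.map C.subtype ≤ commutator G ∧
      Nat.card (N.map C.subtype) = 3 * 2 ^ 13 ∧ (∀ g ∈ C, ∀ x ∈ Q, g * x * g⁻¹ ∈ Q) ∧
      ∀ g, (∀ x ∈ Q, Commute g x) → g ∈ Q := by
  obtain ⟨r, lt⟩ := real504 h.toReal
  have c := cl0123 h.toReal
  have ra0 := ra_of_rg h
  have z2 : wd e [0, 1, 2, 3] * wd e [0, 1, 2, 3] = 1 := c.sq h.toReal.tt24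
  have mz : ∀ {g}, g ∈ C ↔ Commute g (wd e [0, 1, 2, 3]) := hC ▸ mem_cent_iff
  have h1 : {y | y ∈ D ∧ Commute (wd e [0, 1, 2, 3]) y} ⊆ C := fun y hy => mz.2 hy.2.symm
  have h2 : ∀ x ∈ C, ∀ y ∈ {y | y ∈ D ∧ Commute (wd e [0, 1, 2, 3]) y}, x * y * x⁻¹ ∈
      {y | y ∈ D ∧ Commute (wd e [0, 1, 2, 3]) y} := fun x hx y hy =>
    ⟨h.conj_mem' x hy.1, ((mz.1 hx).symm.mul_right hy.2).mul_right (mz.1 hx).symm.inv_right⟩
  obtain ⟨N, _, E, u, ra, hu, hN⟩ := cls504.exists_ker r realR6 (sepR6 realR6) h1 h2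
  have mC : ∀ p < 504, e (em504 p) ∈ C := fun p hp => h1 (r.mem p hp)
  have b1 := ra.card43 (x := QuotientGroup.mk' N ⟨wd e [698, 697], mz.2 (ra0.cmL (by decide +kernel))⟩)
    (φ := fun i => cl504 (sg504 i)) (fun i hi => by
      obtain ⟨b1, b2, b3, b4⟩ := sg504_spec i hi
      obtain ⟨b5, b6⟩ := cls504.rep i hi
      refine ⟨b1, b2, ?_⟩
      rw [← hu _ b3 ⟨_, mC _ b3⟩ rfl, ← (hu _ b5 ⟨_, mC _ b5⟩ rfl).trans (congrArg u b6), ← map_inv, ← map_mul, ← map_mul]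
      exact congrArg _ (Subtype.ext ((opl_conj h.toQReal (by decide) (lt _ b5)).trans (congrArg e b4))))
    (by decide +kernel)
  have b2 := card_eq_card_quotient_mul_card_subgroup N
  rw [b1, ← card_map_of_injective C.subtype_injective (K := N), show Nat.card C = _ from hC ▸ card_cent24 h] at b2
  obtain ⟨-, b3, es⟩ := ra0.sy0 z2 (neL_spec h.toReal (l' := []) (by decide +kernel)) bs24 sy24
  replace es := es (by decide)
  replace b3 : Nat.card (esg e (wd e [0, 1, 2, 3]) bs24) = 2 ^ 13 := b3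
  obtain ⟨t0, t1, t2, t3, t4⟩ := t504
  obtain ⟨H, hH⟩ := exists_stab z2 (e 0 * e 1)
  obtain ⟨-, -, -, c01⟩ := Fi3.cl_two.1 (c.sub (l' := [e 0, e 1]) (by simp))
  obtain ⟨-, -, -, c23⟩ := Fi3.cl_two.1 (c.sub (l' := [e 2, e 3]) (by simp))
  have xz : e 0 * e 1 * wd e [0, 1, 2, 3] = e 2 * e 3 := by
    have := (c.sub (l' := [e 0, e 1]) (by simp)).sq h.toReal.tt24
    simp only [wd_cons, wd_nil, List.prod_cons, List.prod_nil, mul_one] at this ⊢
    rw [← mul_assoc (e 0) (e 1), ← mul_assoc, this, one_mul]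
  have cv : ∀ {l : List ℕ}, (∀ p ∈ l, p < X504.n) → wd (fun p => e (em504 p)) l * (e 0 * e 1) *
      (wd (fun p => e (em504 p)) l)⁻¹ = e (em504 (opl X504 l 501)) * e (em504 (opl X504 l 390)) := fun hl => by
    rw [← opl_conj r.toQReal hl (by decide), ← opl_conj r.toQReal hl (by decide), t0, t1]; group
  have m3 : ∀ p < 504, ∀ q < 504, cl504 p = cl504 q → e (em504 p) * e (em504 q) ∈ N.map C.subtype ⊓ H := fun p hp q hq a => by
    refine ⟨⟨⟨_, mC p hp⟩ * ⟨_, mC q hq⟩, (QuotientGroup.eq_one_iff _).1 (by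
      rw [← QuotientGroup.mk'_apply, map_mul, hu p hp _ rfl, hu q hq _ rfl, a, ra.sq' _ (cls504.spec hq).1]), rfl⟩,
      (hH _).2 ⟨mz.1 (mul_mem (mC p hp) (mC q hq)), ?_⟩⟩
    have := allLt_spec v504 p hp
    rw [frc_eq] at this
    have := allLt_spec this q hq
    simp only [frc_eq, bor_iff, band_iff, bne_iff, beq_iff] at this
    have k := cv (l := [p, q]) (by simp only [List.mem_cons, List.not_mem_nil, or_false, forall_eq_or_imp, forall_eq]; exact ⟨hp, hq⟩)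
    simp only [wd_cons, wd_nil, mul_one] at k
    rw [k, xz]
    rcases this.resolve_left fun b => b a.symm with (⟨b, b'⟩ | ⟨b, b'⟩) | ⟨b, b'⟩ | ⟨b, b'⟩ <;> rw [b, b']
    exacts [Or.inl (by rw [t0, t1]), Or.inl (by rw [t0, t1, c01.eq]), Or.inr (by rw [t2, t3]),
      Or.inr (by rw [t2, t3, c23.eq])]
  have bs : ∀ K : Subgroup G, wd e [0, 1, 2, 3] ∈ K → (∀ p < 504, ∀ q < 504, cl504 p = cl504 q →
      e (em504 p) * e (em504 q) ∈ K) → esg e (wd e [0, 1, 2, 3]) bs24 ≤ K := fun K k1 k2 => esg_le k1 fun p hp => by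
    obtain ⟨x, -, ⟨a1, a2, a3, a4⟩, a5, a6, a7, a8⟩ := bs24_cl p hp
    rw [a4, a8]
    simpa only [wd_cons, wd_nil, mul_one] using And.intro (k2 _ a1 _ a2 a3) (k2 _ a5 _ a6 a7)
  have q1 := bs (N.map C.subtype ⊓ H) ⟨⟨⟨_, mz.2 (Commute.refl _)⟩, (hN _).2 fun p hp q hq b => by
    rw [r.inj q hq p hp (b.symm.trans (conj_eq_iff_commute.2 (r.mem p hp).2))], rfl⟩, (hH _).2 ⟨Commute.refl _, Or.inl
      (conj_eq_iff_commute.2 ((c.commute_prod (by simp)).mul_left (c.commute_prod (by simp))).symm)⟩⟩ m3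
  have b4 : Nat.card (N.map C.subtype) = 3 * Nat.card (esg e (wd e [0, 1, 2, 3]) bs24) := by omega
  have q2 := (eq_or_eq_of_three q1 inf_le_left b4).resolve_right fun a => by
    obtain ⟨a1, a2, a3⟩ := tau504'
    have := (hH _).1 (inf_eq_left.1 a ⟨⟨wd (fun p => e (em504 p)) tau24, list_prod_mem fun x hx => by
      obtain ⟨p, hp, rfl⟩ := List.mem_map.1 hx
      exact mC p (a1 p hp)⟩, (hN _).2 fun p hp q hq b => by
        have := allLt_spec tau504 p hp
        rwa [frc_eq, beq_iff, r.inj _ (opl_lt ok504 a1 hp) q hq ((opl_conj r.toQReal a1 hp).symm.trans b)] at this, rfl⟩)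
    rw [coe_subtype, cv a1, a2, a3, t1, t3, xz] at this
    rcases this.2 with b | b
    · exact neL_spec h.toReal (l := [1, 3]) (l' := [0, 1]) (by decide +kernel) (by simpa [wd] using b)
    · exact neL_spec h.toReal (l := [1, 3]) (l' := [2, 3]) (by decide +kernel) (by simpa [wd] using b)
  have cl := Fi3.class24 h
  have q3 := bs (commutator G) (by
    simp only [wd_cons, wd_nil, mul_one, ← mul_assoc (e 0)]
    exact mul_mem (mul_mem_commutator cl (h.mem 0 (by decide)) (h.mem 1 (by decide)))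
      (mul_mem_commutator cl (h.mem 2 (by decide)) (h.mem 3 (by decide)))) fun p hp q hq _ =>
    mul_mem_commutator cl (r.mem p hp).1 (r.mem q hq).1
  refine ⟨N, inferInstance, E, u, _, ra, es, b3, q1.trans inf_le_left, ?_, by omega, fun g hg x hx => ?_, fun g hg => ?_⟩
  · refine inf_eq_left.1 ((eq_or_eq_of_three (le_inf (q1.trans inf_le_left) q3) inf_le_left b4).resolve_left fun a => ?_)
    have k1 := CA.FG.card_inf_mul_relIndex (commutator G) (N.map C.subtype)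
    have k2 := relIndex_dvd_index_of_normal (commutator G) (N.map C.subtype)
    rw [inf_comm, a, b4, b3] at k1
    rw [h.toReal.index24 h.gen h.ctr, show (commutator G).relIndex (N.map C.subtype) = 3 by omega] at k2
    omega
  · refine bs ((esg e (wd e [0, 1, 2, 3]) bs24).comap (MulAut.conj g).toMonoidHom) ?_ (fun p hp q hq a => ?_) hx
    · show g * _ * g⁻¹ ∈ esg e _ bs24
      rw [conj_eq_iff_commute.2 (mz.1 hg)]
      exact es.z_mem
    · obtain ⟨p', hp', a1⟩ := r.surj _ (h2 g hg _ (r.mem p hp))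
      obtain ⟨q', hq', a2⟩ := r.surj _ (h2 g hg _ (r.mem q hq))
      show g * _ * g⁻¹ ∈ esg e _ bs24
      rw [show g * (e (em504 p) * e (em504 q)) * g⁻¹ = g * e (em504 p) * g⁻¹ * (g * e (em504 q) * g⁻¹) by group, ← a1,
        ← a2, ← q2]
      refine m3 _ hp' _ hq' (ra.inj _ (cls504.spec hp').1 _ (cls504.spec hq').1 ?_)
      rw [← hu p' hp' (⟨g, hg⟩ * ⟨_, mC p hp⟩ * ⟨g, hg⟩⁻¹) a1.symm, ← hu q' hq' (⟨g, hg⟩ * ⟨_, mC q hq⟩ * ⟨g, hg⟩⁻¹) a2.symm,
        map_mul, map_mul, map_mul, map_mul, hu p hp ⟨_, mC p hp⟩ rfl, hu q hq ⟨_, mC q hq⟩ rfl, a]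
  · have gz := hg _ es.z_mem
    rw [← q2] at hg ⊢
    refine ⟨⟨⟨g, mz.2 gz⟩, (hN _).2 fun p hp q hq b => ?_, rfl⟩, (hH _).2 ⟨gz, Or.inl (conj_eq_iff_commute.2
      (hg _ (by simpa only [t0, t1] using m3 _ (by decide) _ (by decide) t4)))⟩⟩
    obtain ⟨a1, a2, a3⟩ := nx504_spec p hp
    have k : Fi3.CL D [e (em504 p), e (em504 (nx504 p))] := Fi3.cl_two.2 ⟨(r.mem p hp).1, (r.mem _ a1).1,
      fun d => a2 (r.inj _ hp _ a1 d).symm, (cls504.comm r realR6 p hp _ a1).2 (a3 ▸ Commute.refl _)⟩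
    obtain ⟨d1, d2⟩ := k.cj_prod (Fi3.conjInv h) (g := g) (by simpa using (hg _ (m3 p hp _ a1 a3.symm)).symm)
    have := ((Fi3.nr24 h.toReal).uniq h.toReal.tt24 d1 k (by simp) (by simp) d2 _).1 List.mem_cons_self
    rw [show cj g (e (em504 p)) = e (em504 q) from b, List.mem_cons, List.mem_singleton] at this
    rcases this with d | d
    exacts [by rw [r.inj q hq p hp d], by rw [r.inj q hq _ a1 d, a3]]

theorem cent24_four [Finite G] (h : RG X24 D e) {C : Subgroup G}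
    (hC : C = commutator G ⊓ centralizer {wd e [0, 1, 2, 3]}) :
    ∃ (Q : Subgroup C) (_ : Q.Normal), generalizedFittingSubgroup C = Q ∧ IsExtraspecial 2 Q ∧ Nat.card Q = 2 ^ 13 ∧
      ∃ (N M : Subgroup C) (_ : N.Normal) (_ : M.Normal), Q ≤ N ∧ N ≤ M ∧ Nat.card N = 3 * Nat.card Q ∧
        Nonempty (M ⧸ N.subgroupOf M ≃* PSU 4 F9 3) ∧ M.index = 2 := by
  obtain ⟨N, _, E, u, Q, ra, es, a1, a2, a3, a4, a5, a6⟩ := ker24 h rfl
  have le : C ≤ centralizer {wd e [0, 1, 2, 3]} := hC ▸ inf_le_right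
  have nC : N.map (centralizer {wd e [0, 1, 2, 3]}).subtype ≤ C := hC ▸ le_inf a3 (map_subtype_le _)
  have := ra.normal
  obtain ⟨-, ⟨φ⟩⟩ := ra.iso43
  set π := (QuotientGroup.mk' N).comp (inclusion le)
  have k1 : π.ker = (N.map (centralizer {wd e [0, 1, 2, 3]}).subtype).subgroupOf C := by
    ext x
    exact (QuotientGroup.eq_one_iff _).trans ⟨fun a => ⟨_, a, rfl⟩, fun ⟨y, a, b⟩ =>
      (Subtype.ext b : y = inclusion le x) ▸ a⟩
  have k2 : ⁅closure E, closure E⁆ ≤ π.range := commutator_le.2 fun a _ b _ => by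
    obtain ⟨a, rfl⟩ := QuotientGroup.mk'_surjective N a
    obtain ⟨b, rfl⟩ := QuotientGroup.mk'_surjective N b
    exact ⟨⟨⁅a, b⁆.1, hC ▸ ⟨commutator_mem_commutator (mem_top a.1) (mem_top b.1), ⁅a, b⁆.2⟩⟩, map_commutatorElement (QuotientGroup.mk' N) a b⟩
  have q1 : Nat.card (Q.subgroupOf C) = 2 ^ 13 := (Nat.card_congr (subgroupOfEquivOfLe (a2.trans nC)).toEquiv).trans a1
  have q2 : Nat.card π.ker = 3 * Nat.card (Q.subgroupOf C) := by
    rw [k1, q1, Nat.card_congr (subgroupOfEquivOfLe nC).toEquiv, a4]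
  have q3 : Q.subgroupOf C ≤ π.ker := k1 ▸ fun x hx => a2 hx
  have n : (Q.subgroupOf C).Normal := ⟨fun x hx g => a5 g (le g.2) x hx⟩
  have es' := es.subgroupOf (a2.trans nC)
  have q4 : π.ker ≤ (⁅closure E, closure E⁆).comap π := fun x hx => by
    rw [mem_comap, MonoidHom.mem_ker.1 hx]; exact one_mem _
  have ψ := (QuotientGroup.quotientMulEquivOfEq (show π.ker.subgroupOf _ = (π.subgroupComap ⁅closure E, closure E⁆).ker from
    Subgroup.ext fun x => ⟨fun a => Subtype.ext a, fun a => congrArg Subtype.val a⟩)).trans ((QuotientGroup.quotientKerEquivOfSurjective _ fun y => by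
      obtain ⟨x, hx⟩ := k2 y.2
      exact ⟨⟨x, by rw [mem_comap, hx]; exact y.2⟩, Subtype.ext hx⟩).trans φ)
  refine ⟨_, n, fstar_eq es'.isPGroup (fun g hg => a6 g fun x hx => congrArg Subtype.val
    (mem_cent_subgroup_iff.1 hg ⟨x, (a2.trans nC) hx⟩ hx)) fun R _ hR => ?_, es'.isExtraspecial, q1, _, _, inferInstance,
    inferInstance, q3, q4, q2, ⟨ψ⟩, ?_⟩
  · rcases ra.le43 (N := R.map π) fun y hy x hx => by
      obtain ⟨y, rfl⟩ := k2 hy
      obtain ⟨x, hx, rfl⟩ := hx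
      exact ⟨_, Normal.conj_mem inferInstance x hx y, by simp only [map_mul, map_inv]⟩ with b | b
    · rcases eq_or_eq_of_three le_sup_right (sup_le ((Subgroup.map_eq_bot_iff _).1 b) q3) q2 with d | d
      · exact le_sup_left.trans d.le
      · obtain ⟨i, hi⟩ := IsPGroup.iff_card.1 (hR.to_sup_of_normal_right es'.isPGroup)
        rw [d, q2] at hi
        exact absurd (Nat.Prime.dvd_of_dvd_pow Nat.prime_three ⟨_, hi.symm⟩) (by decide)
    · obtain ⟨i, hi⟩ := IsPGroup.iff_card.1 ((hR.map π).to_le b)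
      rw [Nat.card_congr φ.toEquiv, card43] at hi
      exact absurd (Nat.Prime.dvd_of_dvd_pow Nat.prime_three (hi ▸ (by norm_num : 3 ∣ 3265920))) (by decide)
  · have b1 := ((⁅closure E, closure E⁆).comap π).index_mul_card
    have b2 := card_eq_card_quotient_mul_card_subgroup (π.ker.subgroupOf ((⁅closure E, closure E⁆).comap π))
    rw [Nat.card_congr ψ.toEquiv, card43, Nat.card_congr (subgroupOfEquivOfLe q4).toEquiv, q2, q1] at b2
    have b3 := CA.FG.card_inf_mul_relIndex (commutator G) (centralizer {wd e [0, 1, 2, 3]})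
    have b4 := relIndex_dvd_index_of_normal (commutator G) (centralizer {wd e [0, 1, 2, 3]})
    rw [h.toReal.index24 h.gen h.ctr, Nat.dvd_prime Nat.prime_two] at b4
    rw [← hC, card_cent24 h, b4.resolve_left fun a => Fi3.not_mem_comm h (h.mem 0 (by decide)) (relIndex_eq_one.1 a
      (mem_cent_iff.2 ((cl0123 h.toReal).commute_prod (by simp))))] at b3
    rw [b2] at b1
    omega

end CA.Cov
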