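/-
Global consequences of the local structure: Sylow 2-subgroups, products of two conjugates of `d`, and
connectedness of the commuting graph on the class of `d`.
-/
import Cfsg.Agent.Cov.Misc

set_option autoImplicit false
set_option linter.unusedSectionVars false

namespace CA.Cov

open Cfsg Subgroup CA.Fi CA.TC

variable {G : Type*} [Group G] [Finite G] {d : G} {e : ℕ → G} {L : LD}

theorem isConj_cj {x : G} (hx : IsConj d x) (g : G) : IsConj d (g * x * g⁻¹) := hx.trans (isConj_iff.2 ⟨g, rfl⟩)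

theorem pg_sup {K : Subgroup G} (hK : IsPGroup 2 K) {u : G} {r : ℕ} (hu : u ^ 2 ^ r = 1)
    (hn : u ∈ normalizer (K : Set G)) : IsPGroup 2 ↥(zpowers u ⊔ K) := by
  obtain ⟨k, -, hk⟩ := (Nat.dvd_prime_pow Nat.prime_two).1 (orderOf_dvd_of_pow_eq_one hu)
  exact (isPGroup_zpowers_of_orderOf hk).to_sup_of_normal_right' hK (zpowers_le_of_mem hn)

theorem pg3 {u x y : G} (hu : u * u = 1) (hx : x * x = 1) (hy : y * y = 1) (c : Commute x y)
    (h1 : u * x * u⁻¹ ∈ zpowers x ⊔ zpowers y) (h2 : u * y * u⁻¹ ∈ zpowers x ⊔ zpowers y) :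
    ∃ P : Subgroup G, IsPGroup 2 P ∧ u ∈ P ∧ x ∈ P ∧ y ∈ P := by
  have a : IsPGroup 2 ↥(zpowers y ⊔ ⊥) := pg_sup IsPGroup.of_bot (r := 1) (by simpa [pow_two] using hy)
    (mem_normalizer_fintype (by simp))
  rw [sup_bot_eq] at a
  have b : IsPGroup 2 ↥(zpowers x ⊔ zpowers y) := pg_sup a (r := 1) (by simpa [pow_two] using hx)
    (mem_normalizer_fintype (by
      rintro _ ⟨k, rfl⟩
      exact ⟨k, by simp only []; rw [(c.zpow_right k).eq, mul_inv_cancel_right]⟩))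
  refine ⟨_, pg_sup b (u := u) (r := 1) (by simpa [pow_two] using hu) (mem_normalizer_fintype fun z hz => ?_),
    mem_sup_left (mem_zpowers _), mem_sup_right (mem_sup_left (mem_zpowers _)),
    mem_sup_right (mem_sup_right (mem_zpowers _))⟩
  have : (zpowers x ⊔ zpowers y).map (MulAut.conj u).toMonoidHom ≤ zpowers x ⊔ zpowers y := by
    rw [Subgroup.map_sup, MonoidHom.map_zpowers, MonoidHom.map_zpowers]
    exact sup_le (zpowers_le_of_mem h1) (zpowers_le_of_mem h2)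
  exact this ⟨z, hz, rfl⟩

/-- The pairs `j < i < N`. -/
def prL (N : ℕ) : List (ℕ × ℕ) := (List.range N).flatMap fun i => (List.range i).map fun j => (i, j)

theorem mem_prL {N i j : ℕ} : (i, j) ∈ prL N ↔ j < i ∧ i < N := by
  simp [prL]; tauto

/-- A mask meets a translate of the base, but does not contain it. -/
noncomputable def LD.mix (L : LD) (m v : ℕ) : Bool :=
  band (anyLt L.N fun i => tb m (Nat.xor v (L.c i))) (anyLt L.N fun i => bnot (tb m (Nat.xor v (L.c i))))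

/-- Checks for the global arguments. -/
structure LD.Gk (L : LD) (cl : ℕ × List ℕ × ℕ × ℕ) (sw : List (List ℕ)) (R : List ℕ) : Prop where
  tr : L.T.Trans
  b1 : L.bp 1 = 0
  mem : cl ∈ L.cls
  cA : (allLt L.N fun i => bor (Nat.beq i 0) (tb cl.2.2.1 (L.c i))) = true
  sw : (allLt L.k fun k => band (allL (nthW sw k) fun j => blt j L.K)
    (allLt L.N fun i => Nat.beq (frc (pwd L.P (nthW sw k) i) (pwd L.P (nthW sw k))) (L.P k i))) = true
  four : ¬ 4 ∣ L.N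
  odd : Odd R.length ∧ (∀ i ∈ R, i < L.N) ∧ lmask L.c R = 0
  mw : (frc (wmask L.c (List.range L.N)) fun m => band (bnot (tb m (Nat.xor (L.c 0) (L.c 1))))
    (allLt L.N fun i => allLt L.N fun j => allLt L.N fun k => bor (Nat.beq i j) (bor (Nat.beq i k) (bor (Nat.beq j k)
      (bnot (tb m (Nat.xor (Nat.xor (L.c i) (L.c j)) (L.c k)))))))) = true
  typ : (frc (wmask L.c (List.range L.N)) fun m => frc (wmask (fun q => Nat.xor (L.c q.1) (L.c q.2)) (prL L.N)) fun m' =>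
    loopB (fun v => bor (Nat.beq v 0) (bor (L.mix m v) (L.mix m' v))) L.n 0) = true

namespace Full

theorem sq (h : Full L d e) {x : G} (hx : IsConj d x) : x * x = 1 := by
  obtain ⟨g, rfl⟩ := isConj_iff.1 hx
  rw [show g * d * g⁻¹ * (g * d * g⁻¹) = g * (d * d) * g⁻¹ by group, h.ext.sq]; simp

theorem loc_D (h : Full L d e) {x : G} (hx : IsConj d x) (hc : Commute d x) : x ∈ insert d (e '' Set.Iio L.T.n) := by
  obtain ⟨g, hg, a⟩ := h.inv_conj hc (h.sq hx)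
  obtain ⟨i, hi, b⟩ := h.inA _ a (isConj_cj hx g)
  have e1 : x = g⁻¹ * L.a d e i * g⁻¹⁻¹ := by rw [b]; group
  by_cases h0 : i = 0
  · left; rw [e1, h0, LD.a_zero, ← hg.inv_right.eq]; group
  · right
    rw [e1, LD.a_pos h0]
    exact h.ext.real.conj_mem (h.ext.mem_cl.2 hg.inv_right) ⟨_, (LD.bp_spec h.ok.B hi h0).1, rfl⟩

theorem tt (h : Full L d e) {k : G} (hk : IsConj d k) : IsThreeTranspositionSet {x | IsConj d x ∧ Commute k x} := by
  obtain ⟨g, rfl⟩ := isConj_iff.1 hk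
  have key : ∀ x, IsConj d x ∧ Commute (g * d * g⁻¹) x → g⁻¹ * x * g⁻¹⁻¹ ∈ insert d (e '' Set.Iio L.T.n) :=
    fun x hx => h.loc_D (isConj_cj hx.1 _) ((commute_cj (g := g)).1 (by simpa [cj, mul_assoc] using hx.2))
  refine ⟨fun x hx => by rw [← orderOf_cj g⁻¹, h.ext.tt.1 _ (key x hx)], fun x hx y hy => ?_⟩
  have := h.ext.tt.2 _ (key x hx) _ (key y hy)
  rwa [show g⁻¹ * x * g⁻¹⁻¹ * (g⁻¹ * y * g⁻¹⁻¹) = g⁻¹ * (x * y) * g⁻¹⁻¹ by group, conj_pow, conj_pow, mul_inv_eq_one,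
    mul_inv_eq_one, mul_eq_left, mul_eq_left] at this

theorem phi_iff (h : Full L d e) {v : ℕ} (hv : v < 2 ^ L.n) :
    IsConj d (phi (L.a d e) L.n v) ↔ tb (wmask L.c (List.range L.N)) v = true := by
  rw [wmask_iff]
  constructor
  · intro hc
    obtain ⟨i, hi, a⟩ := h.inA _ (h.b0.phi_mem v) hc
    exact ⟨i, List.mem_range.2 hi, h.base.phi_inj (h.b0.lt i hi) hv (h.b0.co i hi ▸ a)⟩
  · rintro ⟨i, hi, rfl⟩
    rw [← h.b0.co i (List.mem_range.1 hi)]; exact h.mem i (List.mem_range.1 hi)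

variable {cl : ℕ × List ℕ × ℕ × ℕ} {sw : List (List ℕ)} {R : List ℕ}

theorem N5 (h : Full L d e) : 5 ≤ L.N := h.n5.trans h.b0.le

theorem mem_D (h : Full L d e) (k : L.Gk cl sw R) {p : ℕ} (hp : p < L.T.n) : IsConj d (e p) := by
  obtain ⟨g, -, a⟩ := point_conj h.ext.real k.tr ⟨p, hp, rfl⟩
  have := h.mem 1 (by have := h.N5; omega)
  rw [LD.a_pos one_ne_zero, k.b1] at this
  exact a ▸ isConj_cj this g

theorem np (h : Full L d e) (k : L.Gk cl sw R) : ¬ IsConj d (L.a d e 0 * L.a d e 1) := by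
  have h5 := h.N5
  have := k.mw
  rw [frc_eq, band_iff, bnot_iff] at this
  rw [h.b0.co 0 (by omega), h.b0.co 1 (by omega), ← h.b0.ci.phi_xor h.b0.le,
    h.phi_iff (Nat.xor_lt_two_pow (h.b0.lt 0 (by omega)) (h.b0.lt 1 (by omega)))]
  exact this.1

theorem mw (h : Full L d e) (k : L.Gk cl sw R) {i j l : ℕ} (hi : i < L.N) (hj : j < L.N) (hl : l < L.N)
    (h1 : i ≠ j) (h2 : i ≠ l) (h3 : j ≠ l) : ¬ IsConj d (L.a d e i * L.a d e j * L.a d e l) := by
  have := k.mw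
  rw [frc_eq, band_iff] at this
  have := allLt_spec (allLt_spec (allLt_spec this.2 i hi) j hj) l hl
  simp only [bor_iff, beq_iff, h1, h2, h3, false_or, bnot_iff] at this
  rw [h.b0.co i hi, h.b0.co j hj, h.b0.co l hl, ← h.b0.ci.phi_xor h.b0.le, ← h.b0.ci.phi_xor h.b0.le,
    h.phi_iff (Nat.xor_lt_two_pow (Nat.xor_lt_two_pow (h.b0.lt i hi) (h.b0.lt j hj)) (h.b0.lt l hl))]
  exact this

theorem norm_pt (h : Full L d e) {g : G} (hg : g ∈ normalizer (grp (L.a d e) L.N : Set G)) {i : ℕ} (hi : i < L.N) :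
    ∃ j < L.N, L.a d e j = g * L.a d e i * g⁻¹ :=
  h.inA _ ((mem_normalizer_iff.1 hg _).1 (mem_grp hi)) (isConj_cj (h.mem i hi) g)

theorem trH (h : Full L d e) (k : L.Gk cl sw R) {i j : ℕ} (hi : i < L.N) (hj : j < L.N) (h1 : i ≠ 0) (h2 : j ≠ 0) :
    ∃ g ∈ normalizer (grp (L.a d e) L.N : Set G), Commute d g ∧ g * L.a d e i * g⁻¹ = L.a d e j := by
  have key : ∀ i < L.N, i ≠ 0 → ∃ g ∈ normalizer (grp (L.a d e) L.N : Set G), Commute d g ∧
      g * phi (L.a d e) L.n cl.1 * g⁻¹ = L.a d e i := fun i hi h0 => by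
    have := allLt_spec k.cA i hi
    rw [bor_iff, beq_iff] at this
    obtain ⟨-, w, hw, a⟩ := h.cls_spec k.mem (this.resolve_left h0)
    exact ⟨_, h.acts_norm (acts_wd (fun k hk => h.acts hk) hw), h.com_wd hw, h.b0.co i hi ▸ a⟩
  obtain ⟨g, hg, c, a⟩ := key i hi h1
  obtain ⟨g', hg', c', a'⟩ := key j hj h2
  exact ⟨g' * g⁻¹, mul_mem hg' (inv_mem hg), c'.mul_right c.inv_right, by rw [← a, ← a']; group⟩

theorem norm_le (h : Full L d e) (k : L.Gk cl sw R) {E : Subgroup G} (hA : grp (L.a d e) L.N ≤ E)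
    (h2 : ∀ x ∈ normalizer (grp (L.a d e) L.N : Set G), x * x ∈ E)
    (hn : ∀ n ∈ normalizer (grp (L.a d e) L.N : Set G), ∀ x ∈ E, n * x * n⁻¹ ∈ E) :
    normalizer (grp (L.a d e) L.N : Set G) ≤ E := by
  have h5 := h.N5
  have hS : L.S d e ≤ E := (closure_le _).2 (by
    rintro _ (⟨i, hi, rfl⟩ | ⟨i, hi, rfl⟩)
    · exact hA (mem_grp hi)
    · have := allLt_spec k.sw i hi
      rw [band_iff] at this
      have a := acts_wd (fun k hk => h.acts hk) fun j hj => blt_iff.1 (allL_spec this.1 j hj)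
      have b := h.mem_A_of_acts ((a.mul a).congr fun t ht => by
        have := allLt_spec this.2 t ht
        rwa [frc_eq, beq_iff] at this) (h.acts (lt_of_lt_of_le hi h.t_spec.1))
      have := mul_mem (h2 _ (h.acts_norm a)) (hA b)
      rwa [mul_inv_cancel_left] at this)
  have hH : ∀ g ∈ normalizer (grp (L.a d e) L.N : Set G), Commute d g → g ∈ E := fun g hg hc => by
    obtain ⟨r, m, hm, eo⟩ := Nat.exists_eq_two_pow_mul_odd (orderOf_pos g).ne'
    obtain ⟨u, hu, a⟩ := h.syl (pg_sup h.b0.isPGroup (u := g ^ m) (r := r)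
      (by rw [← pow_mul, mul_comm, ← eo, pow_orderOf_eq_one]) (pow_mem hg m)) fun x hx => mem_cent.1
        ((sup_le (zpowers_le_of_mem (mem_cent.2 (hc.pow_right m))) fun y hy => mem_cent.2 (h.com_A hy)) hx)
    have eA := h.eq_A (B := (grp (L.a d e) L.N).map (MulAut.conj u).toMonoidHom)
      (by rintro _ ⟨y, hy, rfl⟩; exact a y (mem_sup_right hy))
      (by rintro _ ⟨y, hy, rfl⟩; rw [← map_mul, h.b0.sq hy, map_one])
      (by rintro _ ⟨y, hy, rfl⟩ _ ⟨z, hz, rfl⟩; exact (h.b0.comm hy hz).map _)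
      (by rw [card_map_of_injective (MulAut.conj u).injective, h.base.card])
    have un : u ∈ normalizer (grp (L.a d e) L.N : Set G) :=
      mem_normalizer_fintype fun y hy => by rw [← eA]; exact ⟨y, hy, rfl⟩
    have b := hn _ (inv_mem un) _ (hS (a _ (mem_sup_left (mem_zpowers _))))
    obtain ⟨t, rfl⟩ := hm
    have := mul_mem (inv_mem (pow_mem (h2 g hg) t)) b
    convert this using 1
    rw [← pow_two, ← pow_mul]; group
  intro g hg
  obtain ⟨i, hi, a⟩ := h.norm_pt hg h.N0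
  by_cases h0 : i = 0
  · subst h0; exact hH g hg (mul_inv_eq_iff_eq_mul.1 a.symm).symm
  obtain ⟨r, hr, b⟩ := h.norm_pt (inv_mem hg) h.N0
  have r0 : r ≠ 0 := by
    rintro rfl
    refine h0 (h.a_inj hi h.N0 ?_)
    rw [a, ← congrArg (fun z => g * z * g⁻¹) b.symm]; group
  obtain ⟨s, hs, s0, sr⟩ : ∃ s < L.N, s ≠ 0 ∧ s ≠ r := by
    by_cases h1 : r = 1
    · exact ⟨2, by omega, by omega, by omega⟩
    · exact ⟨1, by omega, by omega, by omega⟩
  obtain ⟨m, hm, cm, em⟩ := h.trH k hr hs r0 s0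
  obtain ⟨j, hj, c⟩ := h.norm_pt hg hs
  have j0 : j ≠ 0 := by
    rintro rfl
    refine sr (h.a_inj hs hr ?_)
    rw [b, c]; group
  obtain ⟨m', hm', cm', em'⟩ := h.trH k hj hi j0 h0
  have e1 : m' * (g * m * g⁻¹) ∈ E := mul_mem (hH _ hm' cm') (hn g hg _ (hH _ hm cm))
  have e2 := hH ((m' * (g * m * g⁻¹))⁻¹ * g) (mul_mem (inv_mem (mul_mem hm' (mul_mem (mul_mem hg hm) (inv_mem hg)))) hg)
    (by
      have t : m' * (g * m * g⁻¹) * d * (m' * (g * m * g⁻¹))⁻¹ = g * d * g⁻¹ := by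
        rw [← LD.a_zero (L := L) (d := d) (e := e), ← a, ← em', c, ← em, b]; group
      show d * _ = _ * d
      calc d * ((m' * (g * m * g⁻¹))⁻¹ * g) = (m' * (g * m * g⁻¹))⁻¹ *
            (m' * (g * m * g⁻¹) * d * (m' * (g * m * g⁻¹))⁻¹) * g := by group
        _ = _ := by rw [t]; group)
  have := mul_mem e1 e2
  rwa [mul_inv_cancel_left] at this

theorem fix (h : Full L d e) (k : L.Gk cl sw R) {u : G} (hu : u ∈ normalizer (grp (L.a d e) L.N : Set G))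
    (h2 : u * u = 1) : ∃ i < L.N, Commute u (L.a d e i) := by
  classical
  by_contra hf
  let Ω := {x | x ∈ grp (L.a d e) L.N ∧ IsConj d x}
  let _ : Fintype Ω := Fintype.ofFinite _
  let _ : MulAction (normalizer (grp (L.a d e) L.N : Set G)) Ω :=
    { smul := fun n x => ⟨n * x * (n : G)⁻¹, (mem_normalizer_iff.1 n.2 _).1 x.2.1, isConj_cj x.2.2 _⟩
      one_smul := fun x => Subtype.ext (by show (1 : G) * x * 1⁻¹ = x; simp)
      mul_smul := fun n m x => Subtype.ext (by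
        show (n * m : G) * x * (n * m : G)⁻¹ = n * (m * x * (m : G)⁻¹) * (n : G)⁻¹; group) }
  let ρ := MulAction.toPermHom (normalizer (grp (L.a d e) L.N : Set G)) Ω
  have hρ : ρ ⟨u, hu⟩ ^ 2 = 1 := by rw [← map_pow, show (⟨u, hu⟩ : normalizer _) ^ 2 = 1 from
    Subtype.ext (by simpa [pow_two] using h2), map_one]
  have nf : ∀ x, ρ ⟨u, hu⟩ x ≠ x := fun x hx => by
    obtain ⟨i, hi, a⟩ := h.inA _ x.2.1 x.2.2
    exact hf ⟨i, hi, a ▸ mul_inv_eq_iff_eq_mul.1 (congrArg Subtype.val hx)⟩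
  have cΩ : Fintype.card Ω = L.N := by rw [← Nat.card_eq_fintype_card]; exact h.ncard
  have ev := Equiv.Perm.two_dvd_card_support hρ
  rw [show (ρ ⟨u, hu⟩).support = Finset.univ from Finset.eq_univ_of_forall fun x => Equiv.Perm.mem_support.2 (nf x),
    Finset.card_univ, cΩ] at ev
  have sg := Equiv.Perm.sign_of_pow_two_eq_one hρ
  have : IsEmpty (Function.fixedPoints (ρ ⟨u, hu⟩)) := ⟨fun x => nf x.1 x.2⟩
  rw [cΩ, Fintype.card_eq_zero, Nat.sub_zero, Odd.neg_one_pow (by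
    have := k.four; rw [Nat.odd_iff]; omega)] at sg
  have := h.norm_le k (E := (Equiv.Perm.sign.comp ρ).ker.map (Subgroup.subtype _))
    (fun x hx => ⟨⟨x, le_normalizer hx⟩, by
      have : ρ ⟨x, le_normalizer hx⟩ = 1 := Equiv.ext fun y => Subtype.ext
        (mul_inv_eq_iff_eq_mul.2 (h.b0.comm hx y.2.1).eq)
      simp [this], rfl⟩)
    (fun x hx => ⟨⟨x, hx⟩ * ⟨x, hx⟩, by rw [SetLike.mem_coe, MonoidHom.mem_ker, map_mul]; exact Int.units_mul_self _, rfl⟩)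
    (by
      rintro n hn _ ⟨x, hx, rfl⟩
      exact ⟨_, (MonoidHom.normal_ker _).conj_mem x hx ⟨n, hn⟩, rfl⟩) hu
  obtain ⟨x, hx, rfl⟩ := this
  have : Equiv.Perm.sign (ρ x) = 1 := hx
  exact absurd (this.symm.trans sg) (by decide)

theorem dn (h : Full L d e) (k : L.Gk cl sw R) {y : G} (hy : IsConj d y)
    (hn : y ∈ normalizer (grp (L.a d e) L.N : Set G)) : y ∈ grp (L.a d e) L.N := by
  obtain ⟨i, hi, c⟩ := h.fix k hn (h.sq hy)
  refine h.cA fun j hj => ?_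
  by_contra hc
  have t := h.tt (h.mem i hi)
  have m1 : y ∈ {x | IsConj d x ∧ Commute (L.a d e i) x} := ⟨hy, c.symm⟩
  have m2 : L.a d e j ∈ {x | IsConj d x ∧ Commute (L.a d e i) x} := ⟨h.mem j hj, h.b0.ci.2 i hi j hj⟩
  refine tt_not_commute_cj t m2 (fun c => hc c.symm) ?_
  rw [← tt_cj_comm t m1 m2 hc]
  exact h.b0.comm (mem_grp hj) ((mem_normalizer_iff.1 hn _).1 (mem_grp hj))

theorem syl_norm (h : Full L d e) (k : L.Gk cl sw R) {P : Subgroup G} (hP : IsPGroup 2 P) :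
    ∃ g : G, ∀ u ∈ P, g * u * g⁻¹ ∈ normalizer (grp (L.a d e) L.N : Set G) := by
  obtain ⟨Q, hQ⟩ := h.b0.isPGroup.exists_le_sylow
  have := Q.isPGroup'.isNilpotent
  have top := (normalizerCondition_iff_only_full_group_self_normalizing.1
    (Group.normalizerCondition_of_isNilpotent (G := Q))) ((normalizer (grp (L.a d e) L.N : Set G)).subgroupOf Q)
    (le_antisymm (fun g hg => normalizer_closure_of_conj (by
      rintro _ ⟨i, hi, rfl⟩
      have := (mem_normalizer_iff.1 hg ⟨_, hQ (mem_grp hi)⟩).1 (le_normalizer (mem_grp (a := L.a d e) hi))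
      obtain ⟨j, hj, a⟩ := h.inA _ (h.dn k (isConj_cj (h.mem i hi) g) this) (isConj_cj (h.mem i hi) g)
      exact ⟨j, hj, a⟩)) le_normalizer)
  obtain ⟨g, hg⟩ := exists_conj_le_sylow Q hP
  refine ⟨g⁻¹, fun u hu => ?_⟩
  have : (⟨_, hg u hu⟩ : Q) ∈ (normalizer (grp (L.a d e) L.N : Set G)).subgroupOf Q := top ▸ mem_top _
  rw [inv_inv]; exact this

theorem two_base (h : Full L d e) (k : L.Gk cl sw R) {P : Subgroup G} (hP : IsPGroup 2 P) :
    ∃ g : G, ∀ x ∈ P, IsConj d x → ∃ i < L.N, L.a d e i = g * x * g⁻¹ := by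
  obtain ⟨g, hg⟩ := h.syl_norm k hP
  exact ⟨g, fun x hx c => h.inA _ (h.dn k (isConj_cj c g) (hg x hx)) (isConj_cj c g)⟩

theorem four (h : Full L d e) (k : L.Gk cl sw R) {x y : G} (hx : IsConj d x) (hy : IsConj d y)
    (hc : Commute x (y * x * y⁻¹)) : Commute x y := by
  obtain ⟨P, hP, a1, a2, -⟩ := pg3 (h.sq hy) (h.sq hx) (h.sq (isConj_cj hx y)) hc (mem_sup_right (mem_zpowers _))
    (by
      rw [show y * (y * x * y⁻¹) * y⁻¹ = y * y * x * (y * y)⁻¹ by group, h.sq hy, one_mul, inv_one, mul_one]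
      exact mem_sup_left (mem_zpowers _))
  obtain ⟨g, hg⟩ := h.two_base k hP
  obtain ⟨i, hi, a⟩ := hg x a2 hx
  obtain ⟨j, hj, b⟩ := hg y a1 hy
  exact (commute_cj (g := g)).1 (by rw [cj, cj, ← a, ← b]; exact h.b0.ci.2 i hi j hj)

theorem even (h : Full L d e) (k : L.Gk cl sw R) {t y : G} (ht : IsConj d t) (hy : IsConj d y)
    (he : Even (orderOf (t * y))) : ∃ m, (t * y) ^ (2 * m + 1) * (t * y) ^ (2 * m + 1) = 1 ∧ (t * y) ^ (2 * m + 1) ≠ 1 := by
  obtain ⟨m, hm⟩ := he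
  have pos := orderOf_pos (t * y)
  have ne : (t * y) ^ m ≠ 1 := pow_ne_one_of_lt_orderOf (by omega) (by omega)
  have sq : (t * y) ^ m * (t * y) ^ m = 1 := by rw [← pow_add, ← hm, pow_orderOf_eq_one]
  rcases Nat.even_or_odd' m with ⟨j, rfl | rfl⟩
  · exfalso
    have c : IsConj d (t * (t * y) ^ j) := (dih_isConj_or (h.sq ht) (h.sq hy) j).elim ht.trans hy.trans
    have e1 : t * (t * (t * y) ^ j) = (t * y) ^ j := by rw [← mul_assoc, h.sq ht, one_mul]
    have := h.four k ht c (commute_of_sq_eq_one (h.sq ht) (h.sq (isConj_cj ht _)) (by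
      rw [inv_eq_self_of_sq (h.sq c), mul_assoc (t * (t * y) ^ j), ← mul_assoc t, e1, ← pow_add, ← two_mul, pow_two, sq]))
    have := sq_eq_one_of_commute (h.sq ht) (h.sq c) this
    rw [e1, ← pow_mul, mul_comm] at this
    exact ne this
  · exact ⟨j, sq, ne⟩

theorem mw4 (h : Full L d e) (k : L.Gk cl sw R) {x x' y y' : G} (hx : IsConj d x) (hx' : IsConj d x') (hy : IsConj d y)
    (hy' : IsConj d y') (c : Commute x x') (ne : x ≠ x') (e1 : x * x' = y * y') (c1 : Commute y x) (c2 : Commute y x') :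
    y = x ∨ y = x' := by
  obtain ⟨P, hP, a1, a2, a3⟩ := pg3 (h.sq hy) (h.sq hx) (h.sq hx') c
    (by rw [c1.eq, mul_inv_cancel_right]; exact mem_sup_left (mem_zpowers _))
    (by rw [c2.eq, mul_inv_cancel_right]; exact mem_sup_right (mem_zpowers _))
  obtain ⟨g, hg⟩ := h.two_base k hP
  obtain ⟨i, hi, a⟩ := hg y a1 hy
  obtain ⟨j, hj, b⟩ := hg x a2 hx
  obtain ⟨l, hl, b'⟩ := hg x' a3 hx'
  by_contra hne
  rw [not_or] at hne
  refine h.mw k hi hj hl (fun e2 => hne.1 ?_) (fun e2 => hne.2 ?_) (fun e2 => ne ?_) ?_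
  · rw [e2, b] at a; simpa using a.symm
  · rw [e2, b'] at a; simpa using a.symm
  · rw [e2, b'] at b; simpa using b.symm
  · rw [a, b, b', show g * y * g⁻¹ * (g * x * g⁻¹) * (g * x' * g⁻¹) = g * (y * (x * x')) * g⁻¹ by group, e1,
      ← mul_assoc y, h.sq hy, one_mul]
    exact isConj_cj hy' g

theorem pu0 (h : Full L d e) (k : L.Gk cl sw R) {i j : ℕ} (hi : i < L.N) (hj : j < L.N) (ne : i ≠ j) {y y' : G}
    (hy : IsConj d y) (hy' : IsConj d y') (c : Commute y y') (e1 : L.a d e i * L.a d e j = y * y') :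
    y = L.a d e i ∨ y = L.a d e j := by
  have ne' : L.a d e i ≠ L.a d e j := fun a => ne (h.a_inj hi hj a)
  have cij := h.b0.ci.2 i hi j hj
  have cz : Commute y (L.a d e i * L.a d e j) := e1 ▸ (Commute.refl y).mul_right c
  have yz : y * (L.a d e i * L.a d e j) = y' := by rw [e1, ← mul_assoc, h.sq hy, one_mul]
  have key : ∀ l < L.N, Commute y (L.a d e l * L.a d e i) := fun l hl => by
    by_cases h1 : l = i
    · rw [h1, h.b0.ci.1 i hi]; exact Commute.one_right _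
    by_cases h2 : l = j
    · rw [h2, ← cij.eq]; exact cz
    have ht := h.mem l hl
    have ct : Commute (L.a d e l) (L.a d e i * L.a d e j) := (h.b0.ci.2 l hl i hi).mul_right (h.b0.ci.2 l hl j hj)
    have cj' : ∀ m : ℕ, ((L.a d e l * y) ^ m)⁻¹ * y * ((L.a d e l * y) ^ m)⁻¹⁻¹ * (L.a d e i * L.a d e j) =
        ((L.a d e l * y) ^ m)⁻¹ * y' * ((L.a d e l * y) ^ m)⁻¹⁻¹ := fun m => by
      rw [← yz, inv_inv, mul_assoc, ((ct.mul_left cz).pow_left m).eq]; group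
    rcases Nat.even_or_odd (orderOf (L.a d e l * y)) with ho | ho
    · obtain ⟨m, w1, -⟩ := h.even k ht hy ho
      obtain ⟨w2, w3⟩ := dih_commute (h.sq ht) (h.sq hy) w1
      have y1 := isConj_cj hy ((L.a d e l * y) ^ m)⁻¹
      have y2 := isConj_cj hy' ((L.a d e l * y) ^ m)⁻¹
      rw [← cj' m] at y2
      rw [dih_odd (h.sq ht) (h.sq hy)] at y1 y2
      set w := (L.a d e l * y) ^ (2 * m + 1)
      have cw : Commute (L.a d e l * w) (L.a d e i * L.a d e j) := ct.mul_left ((ct.mul_left cz).pow_left _)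
      have c1 : Commute (L.a d e l * w) (L.a d e i) := t3_two (h.tt ht) ⟨y1, (Commute.refl _).mul_right w2⟩
        ⟨h.mem i hi, h.b0.ci.2 l hl i hi⟩ ⟨h.mem j hj, h.b0.ci.2 l hl j hj⟩ cij ne' cw
      have c2 : Commute (L.a d e l * w) (L.a d e j) := by
        have := c1.inv_right.mul_right cw; rwa [inv_mul_cancel_left] at this
      rcases h.mw4 k (h.mem i hi) (h.mem j hj) y1 y2 cij ne' (by rw [← mul_assoc, h.sq y1, one_mul]) c1 c2 with a | a
      · rw [← a, ← mul_assoc, h.sq ht, one_mul]; exact w3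
      · have := w3.mul_right cz
        rwa [← cij.symm.eq, ← mul_assoc w, ← one_mul w, ← h.sq ht, mul_assoc (L.a d e l), a, mul_assoc (L.a d e l),
          h.b0.ci.1 j hj, mul_one] at this
    · obtain ⟨m, a⟩ := dih_conj_of_odd (h.sq ht) (h.sq hy) ho (pow_orderOf_eq_one _)
      have := isConj_cj hy' ((L.a d e l * y) ^ m)⁻¹
      rw [← cj' m, a, ← mul_assoc] at this
      exact absurd this (h.mw k hl hi hj h1 h2 ne)
  obtain ⟨o1, o2, o3⟩ := k.odd
  have c1 := commute_wd (s := fun l => L.a d e l * L.a d e i) (w := R) fun l hl => key l (o2 l hl)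
  rw [wd_mul_cen fun l hl => h.b0.ci.2 i hi l (o2 l hl), h.b0.ci.wd_eq h.b0.le fun l hl => h.b0.co l (o2 l hl), o3,
    phi_zero, one_mul, pow_odd_of_sq (h.b0.ci.1 i hi) o1] at c1
  refine h.mw4 k (h.mem i hi) (h.mem j hj) hy hy' cij ne' e1 c1 ?_
  have := c1.inv_right.mul_right cz; rwa [inv_mul_cancel_left] at this

/-- A product of two distinct commuting conjugates of `d` determines the factors. -/
theorem pu (h : Full L d e) (k : L.Gk cl sw R) {x x' y y' : G} (hx : IsConj d x) (hx' : IsConj d x') (hy : IsConj d y)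
    (hy' : IsConj d y') (c : Commute x x') (ne : x ≠ x') (c' : Commute y y') (e1 : x * x' = y * y') :
    y = x ∨ y = x' := by
  obtain ⟨P, hP, -, a2, a3⟩ := pg3 (u := 1) (one_mul 1) (h.sq hx) (h.sq hx') c
    (by simpa using mem_sup_left (mem_zpowers _)) (by simpa using mem_sup_right (mem_zpowers _))
  obtain ⟨g, hg⟩ := h.two_base k hP
  obtain ⟨i, hi, a⟩ := hg x a2 hx
  obtain ⟨j, hj, b⟩ := hg x' a3 hx'
  have := h.pu0 k hi hj (fun e2 => ne (by rw [e2, b] at a; simpa using a.symm)) (isConj_cj hy g) (isConj_cj hy' g)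
    (commute_cj.2 c') (by rw [a, b, ← cj, ← cj, ← cj, ← cj, cj_mul_cj, cj_mul_cj, e1])
  rw [a, b] at this
  simpa using this

theorem odd (h : Full L d e) (k : L.Gk cl sw R) {t y : G} (ht : IsConj d t) (hy : IsConj d y) (hc : ¬ Commute t y) :
    ∃ m : ℕ, ((t * y) ^ m)⁻¹ * y * ((t * y) ^ m)⁻¹⁻¹ = t := by
  rcases Nat.even_or_odd (orderOf (t * y)) with ho | ho
  · exfalso
    obtain ⟨m, w1, w0⟩ := h.even k ht hy ho
    obtain ⟨w2, w3⟩ := dih_commute (h.sq ht) (h.sq hy) w1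
    have y1 := isConj_cj hy ((t * y) ^ m)⁻¹
    have t1 := isConj_cj ht ((y * t) ^ m)⁻¹
    rw [dih_odd (h.sq ht) (h.sq hy)] at y1
    rw [dih_odd (h.sq hy) (h.sq ht), show y * t = (t * y)⁻¹ by
      rw [mul_inv_rev, inv_eq_self_of_sq (h.sq ht), inv_eq_self_of_sq (h.sq hy)], inv_pow, inv_eq_self_of_sq w1] at t1
    rcases h.pu k ht y1 hy t1 ((Commute.refl _).mul_right w2) (fun a => w0 (left_eq_mul.1 a))
      ((Commute.refl _).mul_right w3) (by rw [← mul_assoc, ← mul_assoc, h.sq ht, h.sq hy]) with a | a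
    · exact hc (a ▸ Commute.refl _)
    · exact hc (by rw [a]; exact (Commute.refl _).mul_right w2)
  · exact dih_conj_of_odd (h.sq ht) (h.sq hy) ho (pow_orderOf_eq_one _)

theorem pair_iff (h : Full L d e) (k : L.Gk cl sw R) {v : ℕ} (hv : v < 2 ^ L.n) :
    (∃ p q, IsConj d p ∧ IsConj d q ∧ Commute p q ∧ p ≠ q ∧ p * q = phi (L.a d e) L.n v) ↔
      tb (wmask (fun q => Nat.xor (L.c q.1) (L.c q.2)) (prL L.N)) v = true := by
  rw [wmask_iff]
  have key : ∀ i < L.N, ∀ j < L.N, L.a d e i * L.a d e j = phi (L.a d e) L.n (L.c i ^^^ L.c j) := fun i hi j hj => by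
    rw [h.b0.ci.phi_xor h.b0.le, ← h.b0.co i hi, ← h.b0.co j hj]
  constructor
  · rintro ⟨p, q, hp, hq, c, ne, a⟩
    have pA : p ∈ grp (L.a d e) L.N := h.cA fun l hl => by
      have cl : Commute (L.a d e l) (p * q) := a ▸ h.b0.comm (mem_grp hl) (h.b0.phi_mem v)
      refine h.four k hp (h.mem l hl) ?_
      rcases h.pu k hp hq (isConj_cj hp (L.a d e l)) (isConj_cj hq (L.a d e l)) c ne (commute_cj.2 c)
        (by rw [← cj, ← cj, cj_mul_cj, cj, cl.eq, mul_inv_cancel_right]) with b | b <;> rw [b]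
      exact c
    have qA : q ∈ grp (L.a d e) L.N := by
      have := mul_mem (inv_mem pA) (a ▸ h.b0.phi_mem v : p * q ∈ _); rwa [inv_mul_cancel_left] at this
    obtain ⟨i, hi, rfl⟩ := h.inA p pA hp
    obtain ⟨j, hj, rfl⟩ := h.inA q qA hq
    have := h.base.phi_inj (Nat.xor_lt_two_pow (h.b0.lt i hi) (h.b0.lt j hj)) hv (key i hi j hj ▸ a)
    rcases lt_trichotomy i j with b | rfl | b
    · exact ⟨(j, i), mem_prL.2 ⟨b, hj⟩, (Nat.xor_comm _ _).trans this⟩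
    · exact absurd rfl ne
    · exact ⟨(i, j), mem_prL.2 ⟨b, hi⟩, this⟩
  · rintro ⟨⟨i, j⟩, hq, rfl⟩
    obtain ⟨a, b⟩ := mem_prL.1 hq
    exact ⟨_, _, h.mem i b, h.mem j (a.trans b), h.b0.ci.2 i b j (a.trans b),
      fun c => absurd (h.a_inj b (a.trans b) c) a.ne', key i b j (a.trans b)⟩

theorem typ (h : Full L d e) (k : L.Gk cl sw R) {u : G} (hu : u ∈ grp (L.a d e) L.N) (h1 : u ≠ 1)
    (hc : ∀ i < L.N, ∀ j < L.N, IsConj (u * L.a d e i) (u * L.a d e j)) : False := by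
  obtain ⟨v, hv, rfl⟩ := h.b0.exists_phi hu
  have := k.typ
  rw [frc_eq, frc_eq] at this
  have := loopB_lt this hv
  rw [bor_iff, bor_iff, beq_iff] at this
  have lt : ∀ i < L.N, v ^^^ L.c i < 2 ^ L.n := fun i hi => Nat.xor_lt_two_pow hv (h.b0.lt i hi)
  have hc' : ∀ i < L.N, ∀ j < L.N, IsConj (phi (L.a d e) L.n (v ^^^ L.c i)) (phi (L.a d e) L.n (v ^^^ L.c j)) :=
    fun i hi j hj => by
      rw [h.b0.ci.phi_xor h.b0.le, h.b0.ci.phi_xor h.b0.le, ← h.b0.co i hi, ← h.b0.co j hj]; exact hc i hi j hj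
  rcases this with rfl | a | a
  · exact h1 (phi_zero _ _)
  all_goals
    obtain ⟨i, hi, a1⟩ := anyLt_spec (band_iff.1 a).1
    obtain ⟨j, hj, a2⟩ := anyLt_spec (band_iff.1 a).2
    refine bnot_iff.1 a2 ?_
  · exact (h.phi_iff (lt j hj)).1 (((h.phi_iff (lt i hi)).2 a1).trans (hc' i hi j hj))
  · obtain ⟨p, q, hp, hq, c, ne, b⟩ := (h.pair_iff k (lt i hi)).2 a1
    obtain ⟨g, hg⟩ := isConj_iff.1 (hc' i hi j hj)
    exact (h.pair_iff k (lt j hj)).1 ⟨_, _, isConj_cj hp g, isConj_cj hq g, commute_cj.2 c, by simpa using ne,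
      by rw [← hg, ← b]; group⟩

theorem conn1 (h : Full L d e) (k : L.Gk cl sw R) {Γ : Set G} (hΓ : ∀ x ∈ Γ, ∀ y, IsConj d y → Commute x y → y ∈ Γ)
    {u x y : G} (h2 : u * u = 1) (h1 : u ≠ 1) (hx : x ∈ Γ) (cx : IsConj d x) (cy : IsConj d y) (ux : Commute u x)
    (uy : Commute u y) : y ∈ Γ := by
  by_contra hy
  obtain ⟨g, rfl⟩ := isConj_iff.1 cx
  obtain ⟨s, hs, a⟩ := h.inv_conj (x := g⁻¹ * u * g⁻¹⁻¹)
    ((commute_cj (g := g)).1 (by simpa [cj, mul_assoc] using ux.symm))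
    (by rw [← cj, cj_mul_cj, h2]; simp [cj])
  have key : ∀ i < L.N, IsConj (s * (g⁻¹ * u * g⁻¹⁻¹) * s⁻¹ * L.a d e i) (u * y) := fun i hi => by
    have ct := isConj_cj (h.mem i hi) (g * s⁻¹)
    have c1 : Commute (g * d * g⁻¹) (g * s⁻¹ * L.a d e i * (g * s⁻¹)⁻¹) := by
      have := (commute_cj (g := g * s⁻¹)).2 (LD.com_a h.ok.B h.ext hi)
      rwa [cj, mul_assoc g, ← hs.inv_right.eq, show g * (d * s⁻¹) * (g * s⁻¹)⁻¹ = g * d * g⁻¹ by group] at this
    have c2 : Commute u (g * s⁻¹ * L.a d e i * (g * s⁻¹)⁻¹) := by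
      have := (commute_cj (g := g * s⁻¹)).2 (h.b0.comm a (mem_grp hi))
      rwa [cj, show g * s⁻¹ * (s * (g⁻¹ * u * g⁻¹⁻¹) * s⁻¹) * (g * s⁻¹)⁻¹ = u by group] at this
    obtain ⟨m, b⟩ := h.odd k ct cy fun c => hy (hΓ _ (hΓ _ hx _ ct c1) _ cy c)
    refine (isConj_iff.2 ⟨g * s⁻¹, rfl⟩).trans (isConj_iff.2 ⟨(g * s⁻¹ * L.a d e i * (g * s⁻¹)⁻¹ * y) ^ m, ?_⟩)
    rw [show g * s⁻¹ * (s * (g⁻¹ * u * g⁻¹⁻¹) * s⁻¹ * L.a d e i) * (g * s⁻¹)⁻¹ =
      u * (g * s⁻¹ * L.a d e i * (g * s⁻¹)⁻¹) by group, ← mul_assoc, ← ((c2.mul_right uy).pow_right m).eq]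
    generalize (g * s⁻¹ * L.a d e i * (g * s⁻¹)⁻¹ * y) ^ m = c at b
    rw [← b]; group
  exact h.typ k a (by simpa [mul_assoc, ← eq_inv_mul_iff_mul_eq] using h1) fun i hi j hj => (key i hi).trans (key j hj).symm

/-- The commuting graph on the class of `d` is connected. -/
theorem conn (h : Full L d e) (k : L.Gk cl sw R) {Γ : Set G} (hΓ : ∀ x ∈ Γ, ∀ y, IsConj d y → Commute x y → y ∈ Γ)
    (hd : d ∈ Γ) {y : G} (cy : IsConj d y) : y ∈ Γ := by
  have h5 := h.N5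
  have h1 : 1 < L.N := by omega
  have c := h.b0.ci.2 0 h.N0 1 h1
  have ne : L.a d e 0 ≠ L.a d e 1 := fun a => absurd (h.a_inj h.N0 h1 a) (by norm_num)
  have zs : L.a d e 0 * L.a d e 1 * (L.a d e 0 * L.a d e 1) = 1 := h.b0.sq (mul_mem (mem_grp h.N0) (mem_grp h1))
  obtain ⟨m, u2, u1⟩ := dih_exists_of_even (dih_even_of_not_isConj (h.sq cy) zs fun a => h.np k (cy.trans a))
  obtain ⟨c1, c2⟩ := dih_commute (h.sq cy) zs u2
  generalize (y * (L.a d e 0 * L.a d e 1)) ^ m = u at u1 u2 c1 c2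
  have e1 : L.a d e 0 * L.a d e 1 = u * L.a d e 0 * u⁻¹ * (u * L.a d e 1 * u⁻¹) := by
    rw [← cj, ← cj, cj_mul_cj, cj, ← c2.eq, mul_inv_cancel_right]
  have m1 : u * L.a d e 0 * u⁻¹ ∈ zpowers (L.a d e 0) ⊔ zpowers (L.a d e 1) := by
    rcases h.pu k (h.mem 0 h.N0) (h.mem 1 h1) (isConj_cj (h.mem 0 h.N0) u) (isConj_cj (h.mem 1 h1) u) c ne
      (commute_cj.2 c) e1 with a | a <;> rw [a]
    · exact mem_sup_left (mem_zpowers _)
    · exact mem_sup_right (mem_zpowers _)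
  obtain ⟨P, hP, a1, a2, -⟩ := pg3 u2 (h.b0.ci.1 0 h.N0) (h.b0.ci.1 1 h1) c m1 (by
    have := mul_mem (inv_mem m1) (mul_mem (mem_sup_left (mem_zpowers _)) (mem_sup_right (mem_zpowers _)))
    rwa [e1, inv_mul_cancel_left] at this)
  obtain ⟨g, hg⟩ := h.syl_norm k hP
  obtain ⟨i, hi, b⟩ := h.fix k (hg u a1) (by rw [← cj, cj_mul_cj, u2]; simp [cj])
  have cx := isConj_cj (h.mem i hi) g⁻¹
  refine h.conn1 k hΓ u2 u1 (hΓ d hd _ cx ((commute_cj (g := g)).1 ?_)) cx cy ((commute_cj (g := g)).1 ?_) c1.symm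
  · have := h.b0.comm (h.dn k (isConj_cj (h.mem 0 h.N0) g) (hg _ a2)) (mem_grp hi)
    simpa [cj, mul_assoc, LD.a_zero] using this
  · simpa [cj, mul_assoc] using b

end Full

end CA.Cov

theorem CA.realizeEqns_Cov_Glob : True := by
  have := @CA.Cov.LD.mix.eq_1
  have := @CA.Cov.LD.mix.eq_def
  have := @CA.Cov.LD.mix.congr_simp
  have := @CA.Cov.prL.eq_1
  have := @CA.Cov.prL.eq_def
  have := @CA.Cov.prL.congr_simp
  trivial
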