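/-
Existence of a conjugate `b` of `d` not commuting with `d` and commuting with prescribed points; the
realisation of the next table.
-/
import Cfsg.Agent.Cov.Glob
import Cfsg.Agent.Cov.Coset

set_option autoImplicit false
set_option linter.unusedSectionVars false

namespace CA.Cov

open Cfsg Subgroup CA.Fi CA.TC

/-- Deduction steps. -/
inductive St where
  | op (p q : ℕ) : St
  | blk (v : List ℕ) (k0 : ℕ) (kn : List ℕ) (i j k : ℕ) : St

/-- Treatment of an alternative. -/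
inductive Alt where
  | mv (w : List ℕ) : Alt
  | rf (s : List St) (v : List ℕ) (k0 : ℕ) (kn : List ℕ) (i j : ℕ) : Alt

/-- Steps of the search for `b`. -/
inductive Big where
  | d (s : List St) : Big
  | e (v : List ℕ) (k0 : ℕ) (kn : List ℕ) (t j1 j2 j3 : ℕ) (a1 a2 a3 : Alt) : Big

/-- Membership in a list. -/
noncomputable def memL (l : List ℕ) (p : ℕ) : Bool := frc p fun p => anyL l fun q => Nat.beq p q

theorem memL_spec {l : List ℕ} {p : ℕ} (h : memL l p = true) : p ∈ l := by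
  unfold memL at h
  rw [frc_eq] at h
  obtain ⟨q, hq, a⟩ := anyL_spec h
  exact beq_iff.1 a ▸ hq

namespace LD
variable (L : LD)

/-- A base point moved by a word. -/
noncomputable def pv (v : List ℕ) (i : ℕ) : ℕ := L.T.actw v (L.bp i)

/-- A block with known part `k0 :: kn` and unknown part `un`. -/
noncomputable def chkBl (known v : List ℕ) (k0 : ℕ) (kn un : List ℕ) : Bool :=
  band (allL v fun g => blt g L.T.ng) (band (allL un fun i => blt i L.N)
    (band (allL (k0 :: kn) fun i => band (TC.bne i 0) (band (blt i L.N) (memL known (L.pv v i))))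
      (Nat.beq (lmask L.c ((k0 :: kn) ++ un)) 0)))

noncomputable def runD (s : List St) (fin : List ℕ → Bool) : List ℕ → Bool :=
  List.rec fin (fun t _ ih known => St.rec
    (fun p q => band (memL known p) (band (memL known q) (frc (L.T.op p q) fun r => ih (r :: known))))
    (fun v k0 kn i j k => band (L.chkBl known v k0 kn [i, j, k])
      (band (band (TC.bne i 0) (band (TC.bne j 0) (TC.bne k 0))) (band (band (TC.bne i j) (band (TC.bne i k) (TC.bne j k)))
        (frc (L.pv v i) fun p => frc (L.pv v j) fun q => frc (L.pv v k) fun r => ih (p :: q :: r :: known))))) t) s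

noncomputable def chkAlt (known : List ℕ) (p t : ℕ) (a : Alt) : Bool :=
  Alt.rec (fun w => band (allL w fun g => blt g L.T.ng)
      (band (Nat.beq (L.T.actw w p) t) (allL known fun q => Nat.beq (L.T.actw w q) q)))
    (fun s v k0 kn i j => L.runD s (fun known => band (L.chkBl known v k0 kn [i, j, 0])
      (band (TC.bne i j) (band (TC.bne i 0) (TC.bne j 0)))) (p :: known)) a

noncomputable def runB (s : List Big) (fin : List ℕ → Bool) : List ℕ → Bool :=
  List.rec fin (fun t _ ih known => Big.rec (fun s => L.runD s ih known)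
    (fun v k0 kn t j1 j2 j3 a1 a2 a3 => band (L.chkBl known v k0 kn [t, j1, 0, j2, j3])
      (band (band (TC.bne t 0) (band (TC.bne j1 0) (band (TC.bne j2 0) (TC.bne j3 0))))
        (band (band (TC.bne t j1) (TC.bne j2 j3)) (frc (L.pv v t) fun p =>
          band (L.chkAlt known (L.pv v j1) p a1) (band (L.chkAlt known (L.pv v j2) p a2)
            (band (L.chkAlt known (L.pv v j3) p a3) (ih (p :: known)))))))) t) s

end LD

variable {G : Type*} [Group G] [Finite G] {d : G} {e : ℕ → G} {L : LD}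

/-- `b` commutes with the known points. -/
def Kn (L : LD) (e : ℕ → G) (b : G) (known : List ℕ) : Prop := ∀ p ∈ known, p < L.T.n ∧ Commute b (e p)

/-- The moved base. -/
def LD.av (L : LD) (d : G) (e : ℕ → G) (v : List ℕ) (i : ℕ) : G :=
  wd (L.T.gen e) v * L.a d e i * (wd (L.T.gen e) v)⁻¹

namespace Full

theorem av_pos (h : Full L d e) {v : List ℕ} (hv : L.T.Val v) {i : ℕ} (hi : i < L.N) (h0 : i ≠ 0) :
    L.pv v i < L.T.n ∧ L.av d e v i = e (L.pv v i) := by
  have := (LD.bp_spec h.ok.B hi h0).1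
  exact ⟨h.ext.real.ok.actw_lt hv this, by rw [LD.av, LD.a_pos h0, h.ext.q.wd_conj hv this]; rfl⟩

theorem av_zero (h : Full L d e) {v : List ℕ} (hv : L.T.Val v) : L.av d e v 0 = d := by
  rw [LD.av, LD.a_zero, ← (h.ext.com_wd hv).eq, mul_inv_cancel_right]

theorem av_ne (h : Full L d e) {v : List ℕ} {i j : ℕ} (hi : i < L.N) (hj : j < L.N) (ne : i ≠ j) :
    L.av d e v i ≠ L.av d e v j := fun a => ne (h.a_inj hi hj (by simpa [LD.av] using a))

theorem av_com (h : Full L d e) {v : List ℕ} {i j : ℕ} (hi : i < L.N) (hj : j < L.N) :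
    Commute (L.av d e v i) (L.av d e v j) := commute_cj.2 (h.b0.ci.2 i hi j hj)

theorem av_wd (h : Full L d e) (v : List ℕ) {l : List ℕ} (hl : ∀ i ∈ l, i < L.N) (h0 : lmask L.c l = 0) :
    wd (L.av d e v) l = 1 := by
  have := map_wd (MulAut.conj (wd (L.T.gen e) v)).toMonoidHom (L.a d e) l
  rw [h.b0.ci.wd_eq h.b0.le fun i hi => h.b0.co i (hl i hi), h0, phi_zero, map_one] at this
  exact this.symm

theorem bl_spec (h : Full L d e) {b : G} (hb : IsConj d b) {known v kn un : List ℕ} {k0 : ℕ} (hk : Kn L e b known)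
    (hc : L.chkBl known v k0 kn un = true) : L.T.Val v ∧ (∀ i ∈ un, i < L.N) ∧ Commute b (wd (L.av d e v) un) ∧
      ∃ D : Set G, IsThreeTranspositionSet D ∧ b ∈ D ∧ ∀ i < L.N, L.av d e v i ∈ D := by
  unfold LD.chkBl at hc
  simp only [band_iff, beq_iff] at hc
  obtain ⟨a1, a2, a3, a4⟩ := hc
  have hv : L.T.Val v := fun g hg => blt_iff.1 (allL_spec a1 g hg)
  have hu : ∀ i ∈ un, i < L.N := fun i hi => blt_iff.1 (allL_spec a2 i hi)
  have hn : ∀ i ∈ k0 :: kn, i < L.N ∧ Commute b (L.av d e v i) := fun i hi => by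
    have := allL_spec a3 i hi
    simp only [band_iff, bne_iff, blt_iff] at this
    exact ⟨this.2.1, (h.av_pos hv this.2.1 this.1).2 ▸ (hk _ (memL_spec this.2.2)).2⟩
  have k := hn k0 List.mem_cons_self
  refine ⟨hv, hu, ?_, _, h.tt (isConj_cj (h.mem k0 k.1) (wd (L.T.gen e) v)), ⟨hb, k.2.symm⟩,
    fun i hi => ⟨isConj_cj (h.mem i hi) _, h.av_com k.1 hi⟩⟩
  have := h.av_wd v (fun i hi => (List.mem_append.1 hi).elim (fun a => (hn i a).1) (hu i)) a4
  rw [wd_append, mul_eq_one_iff_inv_eq] at this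
  exact this ▸ (commute_wd fun i hi => (hn i hi).2).inv_right

theorem three (h : Full L d e) {b : G} (hb : IsConj d b) {known v kn : List ℕ} {k0 i j k : ℕ} (hk : Kn L e b known)
    (hc : L.chkBl known v k0 kn [i, j, k] = true) (h1 : i ≠ j) (h2 : i ≠ k) (h3 : j ≠ k) :
    L.T.Val v ∧ (i < L.N ∧ j < L.N ∧ k < L.N) ∧
      Commute b (L.av d e v i) ∧ Commute b (L.av d e v j) ∧ Commute b (L.av d e v k) := by
  obtain ⟨hv, hu, c, D, hD, m, mD⟩ := h.bl_spec hb hk hc
  have hi := hu i (by simp)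
  have hj := hu j (by simp)
  have hk := hu k (by simp)
  exact ⟨hv, ⟨hi, hj, hk⟩, t3_three hD m (mD i hi) (mD j hj) (mD k hk) (h.av_com hi hj) (h.av_com hi hk) (h.av_com hj hk)
    (h.av_ne hi hj h1) (h.av_ne hi hk h2) (h.av_ne hj hk h3) (by simpa [mul_assoc] using c)⟩

theorem runD_spec (h : Full L d e) {b : G} (hb : IsConj d b) {fin : List ℕ → Bool} :
    ∀ (s : List St) (known : List ℕ), Kn L e b known → L.runD s fin known = true →
      ∃ known', Kn L e b known' ∧ fin known' = true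
  | [], known, hk, hc => ⟨known, hk, hc⟩
  | .op p q :: s, known, hk, hc => by
    have hc' : band (memL known p) (band (memL known q) (frc (L.T.op p q) fun r => L.runD s fin (r :: known))) = true := hc
    simp only [band_iff, frc_eq] at hc'
    obtain ⟨a1, a2⟩ := hk p (memL_spec hc'.1)
    obtain ⟨b1, b2⟩ := hk q (memL_spec hc'.2.1)
    refine runD_spec h hb s _ (List.forall_mem_cons.2 ⟨⟨h.ext.real.ok.op_lt a1 b1, ?_⟩, hk⟩) hc'.2.2
    rw [← h.ext.q.op a1 b1]
    exact (a2.mul_right b2).mul_right a2.inv_right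
  | .blk v k0 kn i j k :: s, known, hk, hc => by
    have hc' : band (L.chkBl known v k0 kn [i, j, k])
      (band (band (TC.bne i 0) (band (TC.bne j 0) (TC.bne k 0))) (band (band (TC.bne i j) (band (TC.bne i k) (TC.bne j k)))
        (frc (L.pv v i) fun p => frc (L.pv v j) fun q => frc (L.pv v k) fun r =>
          L.runD s fin (p :: q :: r :: known)))) = true := hc
    simp only [band_iff, frc_eq, bne_iff] at hc'
    obtain ⟨a1, ⟨i0, j0, k0⟩, ⟨n1, n2, n3⟩, a2⟩ := hc'
    obtain ⟨hv, ⟨hi, hj, hk'⟩, c1, c2, c3⟩ := h.three hb hk a1 n1 n2 n3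
    exact runD_spec h hb s _ (List.forall_mem_cons.2 ⟨⟨(h.av_pos hv hi i0).1, (h.av_pos hv hi i0).2 ▸ c1⟩,
      List.forall_mem_cons.2 ⟨⟨(h.av_pos hv hj j0).1, (h.av_pos hv hj j0).2 ▸ c2⟩,
        List.forall_mem_cons.2 ⟨⟨(h.av_pos hv hk' k0).1, (h.av_pos hv hk' k0).2 ▸ c3⟩, hk⟩⟩⟩) a2

theorem alt_spec (h : Full L d e) {b : G} (hb : IsConj d b) (nb : ¬ Commute d b) {known : List ℕ} (hk : Kn L e b known)
    {p t : ℕ} (hp : p < L.T.n) (c : Commute b (e p)) :
    ∀ a : Alt, L.chkAlt known p t a = true → ∃ b', IsConj d b' ∧ ¬ Commute d b' ∧ Kn L e b' (t :: known)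
  | .mv w, hc => by
    have hc' : band (allL w fun g => blt g L.T.ng)
      (band (Nat.beq (L.T.actw w p) t) (allL known fun q => Nat.beq (L.T.actw w q) q)) = true := hc
    simp only [band_iff, beq_iff] at hc'
    have hv : L.T.Val w := fun g hg => blt_iff.1 (allL_spec hc'.1 g hg)
    have key : ∀ q < L.T.n, Commute b (e q) → Commute (cj (wd (L.T.gen e) w) b) (e (L.T.actw w q)) := fun q hq c => by
      rw [← h.ext.q.wd_conj hv hq]; exact commute_cj.2 c
    refine ⟨cj (wd (L.T.gen e) w) b, isConj_cj hb _, fun c => nb ((commute_cj (g := wd (L.T.gen e) w)).1 ?_),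
      List.forall_mem_cons.2 ⟨hc'.2.1 ▸ ⟨h.ext.real.ok.actw_lt hv hp, key p hp c⟩, fun q hq => ⟨(hk q hq).1, ?_⟩⟩⟩
    · rwa [cj, ← (h.ext.com_wd hv).eq, mul_inv_cancel_right]
    · exact beq_iff.1 (allL_spec hc'.2.2 q hq) ▸ key q (hk q hq).1 (hk q hq).2
  | .rf s v k0 kn i j, hc => by
    obtain ⟨known', hk', a⟩ := h.runD_spec hb s (p :: known) (List.forall_mem_cons.2 ⟨⟨hp, c⟩, hk⟩) hc
    simp only [band_iff, bne_iff] at a
    obtain ⟨hv, -, -, -, c3⟩ := h.three hb hk' a.1 a.2.1 a.2.2.1 a.2.2.2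
    exact absurd (h.av_zero hv ▸ c3).symm nb

theorem runB_spec (h : Full L d e) {fin : List ℕ → Bool} :
    ∀ (s : List Big) (known : List ℕ) (b : G), IsConj d b → ¬ Commute d b → Kn L e b known → L.runB s fin known = true →
      ∃ known' b', IsConj d b' ∧ ¬ Commute d b' ∧ Kn L e b' known' ∧ fin known' = true
  | [], known, b, hb, nb, hk, hc => ⟨known, b, hb, nb, hk, hc⟩
  | .d s :: r, known, b, hb, nb, hk, hc => by
    obtain ⟨known', hk', a⟩ := h.runD_spec hb s known hk hc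
    exact runB_spec h r known' b hb nb hk' a
  | .e v k0 kn t j1 j2 j3 a1 a2 a3 :: r, known, b, hb, nb, hk, hc => by
    have hc' : band (L.chkBl known v k0 kn [t, j1, 0, j2, j3])
      (band (band (TC.bne t 0) (band (TC.bne j1 0) (band (TC.bne j2 0) (TC.bne j3 0))))
        (band (band (TC.bne t j1) (TC.bne j2 j3)) (frc (L.pv v t) fun p =>
          band (L.chkAlt known (L.pv v j1) p a1) (band (L.chkAlt known (L.pv v j2) p a2)
            (band (L.chkAlt known (L.pv v j3) p a3) (L.runB r fin (p :: known))))))) = true := hc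
    simp only [band_iff, frc_eq, bne_iff] at hc'
    obtain ⟨b1, ⟨z0, z1, z2, z3⟩, ⟨n1, n2⟩, b2, b3, b4, b5⟩ := hc'
    obtain ⟨hv, hu, c, D, hD, m, mD⟩ := h.bl_spec hb hk b1
    have h0 := hu t (by simp)
    have h1 := hu j1 (by simp)
    have h2 := hu j2 (by simp)
    have h3 := hu j3 (by simp)
    have := t3_five hD m (mD 0 h.N0) (mD t h0) (mD j1 h1) (mD j2 h2) (mD j3 h3) (h.av_com h0 h1) (h.av_com h2 h3)
      (h.av_ne h0 h1 n1) (h.av_ne h2 h3 n2) ((h.av_com h.N0 h2).mul_right (h.av_com h.N0 h3))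
      (by simpa [mul_assoc] using c) (by rw [h.av_zero hv]; exact fun c => nb c.symm)
    rw [(h.av_pos hv h0 z0).2, (h.av_pos hv h1 z1).2, (h.av_pos hv h2 z2).2, (h.av_pos hv h3 z3).2] at this
    obtain ⟨b', x1, x2, x3⟩ : ∃ b', IsConj d b' ∧ ¬ Commute d b' ∧ Kn L e b' (L.pv v t :: known) := by
      rcases this with c | c | c | c
      · exact ⟨b, hb, nb, List.forall_mem_cons.2 ⟨⟨(h.av_pos hv h0 z0).1, c⟩, hk⟩⟩
      · exact h.alt_spec hb nb hk (h.av_pos hv h1 z1).1 c a1 b2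
      · exact h.alt_spec hb nb hk (h.av_pos hv h2 z2).1 c a2 b3
      · exact h.alt_spec hb nb hk (h.av_pos hv h3 z3).1 c a3 b4
    exact runB_spec h r _ b' x1 x2 x3 b5

variable {cl : ℕ × List ℕ × ℕ × ℕ} {sw : List (List ℕ)} {R : List ℕ}

/-- A starting element: if `x`, `y` commute with `d` … -/
theorem exists_nc (h : Full L d e) (k : L.Gk cl sw R) {x : G} (hx : IsConj d x) (c : Commute d x) (ne : x ≠ d)
    {p : ℕ} (hp : p < L.T.n) (nc : L.T.op 0 p ≠ p) : ∃ b, IsConj d b ∧ ¬ Commute d b ∧ Commute b x := by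
  obtain ⟨g, rfl⟩ := isConj_iff.1 hx
  have c' : Commute d (g⁻¹ * d * g⁻¹⁻¹) := (commute_cj (g := g)).1 (by simpa [cj, mul_assoc] using c.symm)
  obtain ⟨u, hu, a⟩ := point_conj h.ext.real k.tr ((h.loc_D (isConj_cj (IsConj.refl d) _) c').resolve_left
    fun a => ne (by rw [← congrArg (fun z => g * z * g⁻¹) a]; group))
  refine ⟨cj (g * u) (e p), isConj_cj (h.mem_D k hp) _, fun c2 => nc ((h.ext.real.commute_iff (by omega) hp).1
    ((commute_cj (g := g * u)).1 ?_)), ?_⟩
  · rwa [show cj (g * u) (e 0) = d by rw [cj, mul_inv_rev, mul_assoc g, mul_assoc g, ← mul_assoc (u * e 0), a]; group]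
  · have := (commute_cj (g := g * u)).2 (h.ext.com p hp).symm
    rwa [show cj (g * u) d = g * d * g⁻¹ by rw [cj, mul_assoc g, ← (h.ext.mem_cl.1 hu).eq]; group] at this

theorem braid (h : Full L d e) {x y k : G} (hx : IsConj d x) (hy : IsConj d y) (hk : IsConj d k) (c1 : Commute k x)
    (c2 : Commute k y) (nc : ¬ Commute x y) : x * y * x = y * x * y := tt_braid (h.tt hk) ⟨hx, c1⟩ ⟨hy, c2⟩ nc

/-- The conclusion from a realisation of the next table. -/
theorem final (h : Full L d e) (k : L.Gk cl sw R) {hi : Tab} (hN : Nest L.T hi) (ht : hi.Trans)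
    (h3 : ∀ q < hi.n, chk3 hi q = true) {e' : ℕ → G} (q : QReal hi e') (h0 : e' 0 = d)
    (h1 : ∀ g < L.T.ng, hi.gen e' g = L.T.gen e g) (nb : ¬ Commute d (e' (L.T.n + 1))) :
    Real hi (conjugatesOf d) e' ∧ IsThreeTranspositionClass (conjugatesOf d) ∧ center G = ⊥ := by
  have hn := hN.n_lt
  have lo : ∀ p < L.T.n, e' (p + 1) = e p :=
    (q.lower hN).ext h.ext.q fun g hg => (hN.gen_lo e' hg).trans (h1 g hg)
  have i0 : ∀ p < hi.n, e' p = d → p = 0 := fun p hp a => by
    by_cases hl : L.T.n < p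
    · obtain ⟨w, hw, rfl⟩ := hN.a_orbit p hp hl
      have hw' : hi.Val w := fun g hg => by have := hw g hg; rw [hN.ng]; omega
      have b := q.wd_conj hw' (show 0 < hi.n by omega)
      rw [hN.actw_zero hw, h0] at b
      rw [← q.wd_conj hw' hn, ← b] at a
      exact absurd (by rw [show e' (L.T.n + 1) = d by simpa using a]) nb
    · rcases p with _ | p
      · rfl
      · exact absurd (lo p (by omega) ▸ a) (h.ext.ne1 p (by omega)).2
  have r : Real hi (e' '' Set.Iio hi.n) e' := { q with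
    mem := fun p hp => ⟨p, hp, rfl⟩
    surj := by rintro _ ⟨p, hp, rfl⟩; exact ⟨p, hp, rfl⟩
    inj := fun p hp p' hp' a => by
      obtain ⟨w, hw, rfl⟩ := ht p hp
      have := i0 _ (q.ok.run_lt hw hp') (by rw [← q.run_conj hw hp', ← a, ← q.wd_conj hw (by omega), h0]; group)
      rw [← q.ok.actw_run hw hp', this] }
  have sub : insert d (e '' Set.Iio L.T.n) ⊆ e' '' Set.Iio hi.n := by
    rintro _ (rfl | ⟨p, hp, rfl⟩)
    · exact ⟨0, show 0 < hi.n by omega, h0⟩
    · exact ⟨p + 1, show p + 1 < hi.n by have : p < _ := hp; omega, lo p hp⟩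
  have eD : conjugatesOf d = e' '' Set.Iio hi.n := by
    refine Set.ext fun y => ⟨fun hy => h.conn k (fun x hx y hy c => ?_) (sub (Set.mem_insert _ _)) hy, fun hy => ?_⟩
    · obtain ⟨g, hg, rfl⟩ := point_conj r ht hx
      have := r.conj_mem hg (sub (h.loc_D (isConj_cj hy g⁻¹) ((commute_cj (g := g)).1 (by
        rw [h0] at c; simpa [cj, mul_assoc] using c))))
      simpa [mul_assoc] using this
    · obtain ⟨g, -, rfl⟩ := point_conj r ht hy
      rw [h0]; exact isConj_cj (IsConj.refl d) g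
  rw [eD]
  refine ⟨r, ⟨tt_of_real r ht (by omega) h3, ⟨d, sub (Set.mem_insert _ _), eD.symm⟩, eq_top_iff.2 fun g _ => ?_⟩,
    eq_bot_iff.2 fun z hz => ?_⟩
  · obtain ⟨u, hu, a⟩ := point_conj r ht (eD ▸ isConj_cj (IsConj.refl d) g : g * d * g⁻¹ ∈ _)
    rw [h0] at a
    have := mul_mem hu (closure_mono ((Set.subset_insert _ _).trans sub) (h.ext.mem_cl.2 (show d * (u⁻¹ * g) = u⁻¹ * g * d by
      calc _ = u⁻¹ * (u * d * u⁻¹) * g := by group
        _ = _ := by rw [a]; group)))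
    rwa [mul_inv_cancel_left] at this
  · rw [mem_center_iff] at hz
    exact (h.ext.ker z (hz d) fun p _ => (hz _).symm).resolve_right fun a => nb (a ▸ (hz _).symm)

theorem exists_nc2 (h : Full L d e) (k : L.Gk cl sw R) {q0 : ℕ} (h2 : Nb0 G L.T q0) (hq : q0 < L.T.n) {x y : G}
    (hx : IsConj d x) (hy : IsConj d y) (c1 : Commute d x) (c2 : Commute d y) (c3 : Commute x y) (n1 : x ≠ d)
    (n2 : y ≠ d) (n3 : y ≠ x) {p : ℕ} (hp : p < L.T.n) (nc : L.T.op 0 p ≠ p) (cp : L.T.op q0 p = p) :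
    ∃ b, IsConj d b ∧ ¬ Commute d b ∧ Commute b x ∧ Commute b y := by
  obtain ⟨g, rfl⟩ := isConj_iff.1 hx
  have key : ∀ z, IsConj d z → Commute (g * d * g⁻¹) z → z ≠ g * d * g⁻¹ → cj g⁻¹ z ∈ e '' Set.Iio L.T.n :=
    fun z hz c n => (h.loc_D (isConj_cj hz _) ((commute_cj (g := g)).1 (by simpa [cj, mul_assoc] using c))).resolve_left
      fun a => n (by rw [← congrArg (fun z => g * z * g⁻¹) a]; group)
  obtain ⟨u, hu, a, a'⟩ := pair_conj h.ext.real k.tr h2 (key d (IsConj.refl d) c1.symm n1.symm) (key y hy c3 n3)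
    (by simpa [cj] using n2.symm) (commute_cj.2 c2)
  have t : ∀ z w, u * z * u⁻¹ = cj g⁻¹ w → cj (g * u) z = w := fun z w b => by
    rw [cj, mul_inv_rev, mul_assoc g, mul_assoc g, ← mul_assoc (u * z), b, cj]; group
  refine ⟨cj (g * u) (e p), isConj_cj (h.mem_D k hp) _, fun c2 => nc ((h.ext.real.commute_iff (by omega) hp).1
    ((commute_cj (g := g * u)).1 ?_)), ?_, ?_⟩
  · rwa [t _ _ a]
  · have := (commute_cj (g := g * u)).2 (h.ext.com p hp).symm
    rwa [show cj (g * u) d = g * d * g⁻¹ by rw [cj, mul_assoc g, ← (h.ext.mem_cl.1 hu).eq]; group] at this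
  · have := (commute_cj (g := g * u)).2 (h.ext.q.commute_of_op hq hp cp).symm
    rwa [t _ _ a'] at this

/-- The final check of the search. -/
noncomputable def _root_.CA.Cov.LD.fin (L : LD) (c0 s0 : ℕ) (u v w : List ℕ) (k0 : ℕ) (kn : List ℕ) (iq ic ip : ℕ)
    (known : List ℕ) : Bool :=
  band (allLt L.T.ng fun g => bor (Nat.beq g c0) (memL known (L.T.pt g)))
    (band (L.chkBl known w k0 kn [iq, 0, ic, ip]) (band (band (TC.bne iq 0) (band (TC.bne ic 0) (TC.bne ip 0)))
      (band (band (TC.bne iq ic) (band (TC.bne iq ip) (TC.bne ic ip)))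
        (band (band (blt c0 L.T.ng) (band (blt s0 L.T.ng) (band (allL u fun g => blt g L.T.ng) (allL v fun g => blt g L.T.ng))))
          (band (Nat.beq (L.pv w iq) (L.T.actw v (L.T.pt s0))) (band (Nat.beq (L.pv w ic) (L.T.pt c0))
            (Nat.beq (L.pv w ip) (L.T.run u (L.T.pt s0)))))))))

theorem main (h : Full L d e) (k : L.Gk cl sw R) {hi : Tab} (hN : Nest L.T hi) (ht : hi.Trans)
    (h3 : ∀ q < hi.n, chk3 hi q = true) {qs : List (ℕ × List ℕ × ℕ)}
    (hq : ∀ s : ℕ → G, (∀ g < L.T.ng + 2, s g * s g = 1) → QRel s qs → QReal hi (hi.el s))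
    {c0 s0 k0 iq ic ip : ℕ} {u v w kn known : List ℕ} {st : List Big} {b : G} (hb : IsConj d b) (nb : ¬ Commute d b)
    (hk : Kn L e b known) (hc : L.runB st (L.fin c0 s0 u v w k0 kn iq ic ip) known = true) {m : ℕ} (hm : L.T.ng = m)
    (hr : ∀ q ∈ qs, chkQ L.T q = true ∨ q = (s0, u ++ [m + 1, c0, m, m + 1] ++ v, s0) ∨ q = (c0, [m + 1, c0], m + 1) ∨
      q = (m, [m + 1, m], m + 1) ∨ ∃ y ∈ List.range (m + 2), q = (q.1, [y], q.1) ∧
        (q.1 = y ∨ q.1 = m ∧ y < m ∨ y = m ∧ q.1 < m ∨ q.1 = m + 1 ∧ y < m ∧ y ≠ c0 ∨ y = m + 1 ∧ q.1 < m ∧ q.1 ≠ c0)) :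
    ∃ e', Real hi (conjugatesOf d) e' ∧ IsThreeTranspositionClass (conjugatesOf d) ∧ center G = ⊥ := by
  obtain ⟨known', b, hb, nb, hk, hc⟩ := h.runB_spec st known b hb nb hk hc
  unfold LD.fin at hc
  simp only [band_iff, bne_iff, blt_iff, beq_iff, hm] at hc
  obtain ⟨a1, a2, ⟨z1, z2, z3⟩, ⟨n1, n2, n3⟩, ⟨l1, l2, l3, l4⟩, e1, e2, e3⟩ := hc
  have hu : L.T.Val u := fun g hg => hm ▸ blt_iff.1 (allL_spec l3 g hg)
  have hv : L.T.Val v := fun g hg => hm ▸ blt_iff.1 (allL_spec l4 g hg)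
  have cb : ∀ g < m, g ≠ c0 → Commute b (L.T.gen e g) := fun g hg ne => by
    have := allLt_spec a1 g hg
    rw [bor_iff, beq_iff] at this
    exact (hk _ (memL_spec (this.resolve_left ne))).2
  obtain ⟨hw, hun, c, D, hD, mb, mD⟩ := h.bl_spec hb hk a2
  have h1 := hun iq (by simp)
  have h2 := hun ic (by simp)
  have h4 := hun ip (by simp)
  simp only [wd_cons, wd_nil, mul_one] at c
  have nb' : ¬ Commute b (L.av d e w 0) := by rw [h.av_zero hw]; exact fun c => nb c.symm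
  have bq := tt_braid hD mb (mD iq h1) fun c' => nb' (t3_three hD mb (mD 0 h.N0) (mD ic h2) (mD ip h4) (h.av_com h.N0 h2)
    (h.av_com h.N0 h4) (h.av_com h2 h4) (h.av_ne h.N0 h2 z2.symm) (h.av_ne h.N0 h4 z3.symm) (h.av_ne h2 h4 n3)
    (by simpa [mul_assoc] using c'.inv_right.mul_right c)).1
  have bp := tt_braid hD mb (mD ip h4) fun c' => nb' (t3_three hD mb (mD iq h1) (mD 0 h.N0) (mD ic h2) (h.av_com h1 h.N0)
    (h.av_com h1 h2) (h.av_com h.N0 h2) (h.av_ne h1 h.N0 z1) (h.av_ne h1 h2 n1) (h.av_ne h.N0 h2 z2.symm)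
    (by simpa [mul_assoc] using c.mul_right c'.inv_right)).2.1
  have bc := tt_braid hD mb (mD ic h2) fun c' => nb' (t3_three hD mb (mD iq h1) (mD 0 h.N0) (mD ip h4) (h.av_com h1 h.N0)
    (h.av_com h1 h4) (h.av_com h.N0 h4) (h.av_ne h1 h.N0 z1) (h.av_ne h1 h4 n2) (h.av_ne h.N0 h4 z3.symm)
    (by rw [(h.av_com h2 h4).eq] at c; simpa [mul_assoc] using c.mul_right c'.inv_right)).2.1
  have bd := tt_braid hD mb (mD 0 h.N0) nb'
  rw [h.av_zero hw] at c bd
  rw [(h.av_pos hw h1 z1).2, e1] at c bq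
  rw [(h.av_pos hw h4 z3).2, e3] at c bp
  rw [(h.av_pos hw h2 z2).2, e2] at c bc
  let s : ℕ → G := fun g => if g < m then L.T.gen e g else if g = m then d else b
  have s1 : ∀ g < m, s g = L.T.gen e g := fun g hg => if_pos hg
  have s2 : s m = d := by simp [s]
  have s3 : s (m + 1) = b := by simp [s]
  have sw : ∀ w, L.T.Val w → wd s w = wd (L.T.gen e) w := fun w hw => wd_congr fun g hg => s1 g (hm ▸ hw g hg)
  have bs := h.sq hb
  have br : ∀ x : G, x * x = 1 → b * x * b = x * b * x → (b * (x * 1))⁻¹ * x * (b * (x * 1)) = b := fun x hx a => by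
    rw [mul_one, mul_inv_rev, inv_eq_self_of_sq hx, inv_eq_self_of_sq bs, ← a, mul_assoc, mul_assoc b, ← mul_assoc b b,
      bs, one_mul, hx, mul_one]
  have q := hq s (fun g hg => by
      by_cases g1 : g < m
      · rw [s1 g g1]; exact h.ext.q.sq g (hm ▸ g1)
      by_cases g2 : g = m
      · rw [g2, s2]; exact h.ext.sq
      · rw [show g = m + 1 by omega, s3]; exact bs)
    (fun q hq => by
      rcases hr q hq with a | rfl | rfl | rfl | ⟨y, -, a, a'⟩
      · have := qrel_of_chk h.ext.q a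
        unfold chkQ at a
        simp only [band_iff, blt_iff, hm] at a
        rwa [sw _ fun g hg => hm ▸ blt_iff.1 (allL_spec a.2.2.1 g hg), s1 _ a.1, s1 _ a.2.1]
      · have hp := h.ext.real.ok.pt_lt s0 (hm ▸ l2)
        have x1 := h.ext.q.run_conj hu hp
        have x2 := h.ext.q.wd_conj hv hp
        have y1 := h.ext.q.sq' _ (h.ext.real.ok.run_lt hu hp)
        have y2 := h.ext.q.sq' _ (h.ext.real.ok.actw_lt hv hp)
        have y3 := h.ext.q.sq' _ (h.ext.real.ok.pt_lt c0 (hm ▸ l1))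
        have y4 := h.ext.com _ (h.ext.real.ok.pt_lt c0 (hm ▸ l1))
        simp only [wd_append, wd_cons, wd_nil, sw u hu, sw v hv, s1 _ l1, s1 _ l2, s2, s3, mul_one, Tab.gen]
        generalize e (L.T.run u (L.T.pt s0)) = p at *
        generalize e (L.T.actw v (L.T.pt s0)) = q at *
        generalize e (L.T.pt c0) = c' at *
        have key : (b * (c' * (d * b)))⁻¹ * p * (b * (c' * (d * b))) = q := by
          have i1 := inv_eq_self_of_sq bs
          calc _ = b⁻¹ * d⁻¹ * c'⁻¹ * (b⁻¹ * p * b) * c' * d * b := by group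
            _ = b⁻¹ * q⁻¹ * (q * (d * (c' * p)) * b * (q * (d * (c' * p)))⁻¹) * q * b := by
              rw [i1, bp, mul_inv_rev, mul_inv_rev, mul_inv_rev, inv_eq_self_of_sq y1, inv_eq_self_of_sq y3,
                inv_eq_self_of_sq h.ext.sq]
              group
            _ = q := by
              rw [← c.eq, mul_inv_cancel_right, i1, inv_eq_self_of_sq y2, bq, mul_assoc q b, mul_assoc q,
                mul_assoc b, y2, mul_one, mul_assoc, bs, mul_one]
        calc _ = (wd (L.T.gen e) v)⁻¹ * ((b * (c' * (d * b)))⁻¹ * ((wd (L.T.gen e) u)⁻¹ * e (L.T.pt s0) *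
              wd (L.T.gen e) u) * (b * (c' * (d * b)))) * wd (L.T.gen e) v := by group
          _ = _ := by rw [x1, key, ← x2]; group
      · simp only [wd_cons, wd_nil, s1 _ l1, s3]
        exact br _ (h.ext.q.sq c0 (hm ▸ l1)) bc
      · simp only [wd_cons, wd_nil, s2, s3]
        exact br _ h.ext.sq bd
      · have : Commute (s q.1) (s y) := by
          rcases a' with x1 | ⟨x1, x2⟩ | ⟨x1, x2⟩ | ⟨x1, x2, x3⟩ | ⟨x1, x2, x3⟩
          · rw [x1]
          · rw [x1, s2, s1 y x2]; exact h.ext.com _ (h.ext.real.ok.pt_lt y (hm ▸ x2))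
          · rw [x1, s2, s1 _ x2]; exact (h.ext.com _ (h.ext.real.ok.pt_lt _ (hm ▸ x2))).symm
          · rw [x1, s3, s1 y x2]; exact cb y x2 x3
          · rw [x1, s3, s1 _ x2]; exact (cb _ x2 x3).symm
        rw [a]
        simp only [wd_cons, wd_nil, mul_one]
        rw [mul_assoc, this.eq, inv_mul_cancel_left])
  have g1 : ∀ g < m + 2, hi.gen (hi.el s) g = s g := fun g hg => hN.hi_ok.el_pt s (by rw [hN.ng, hm]; exact hg)
  refine ⟨_, h.final k hN ht h3 q ?_ (fun g hg => ?_) ?_⟩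
  · rw [← hN.gen_z (hi.el s), hm, g1 m (by omega), s2]
  · rw [g1 g (by omega), s1 g (hm ▸ hg)]
  · rw [← hN.gen_b (hi.el s), hm, g1 _ (by omega), s3]; exact nb

end Full

end CA.Cov

theorem CA.realizeEqns_Cov_Seed : True := by
  have := @CA.Cov.LD.runB.eq_1
  have := @CA.Cov.LD.runB.eq_def
  have := @CA.Cov.LD.runB.congr_simp
  have := @CA.Cov.LD.fin.eq_1
  have := @CA.Cov.LD.fin.eq_def
  have := @CA.Cov.LD.fin.congr_simp
  have := @CA.Cov.LD.pv.eq_1
  have := @CA.Cov.LD.pv.eq_def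
  have := @CA.Cov.LD.pv.congr_simp
  have := @CA.Cov.LD.chkBl.eq_1
  have := @CA.Cov.LD.chkBl.eq_def
  have := @CA.Cov.LD.chkBl.congr_simp
  have := @CA.Cov.memL.eq_1
  have := @CA.Cov.memL.eq_def
  have := @CA.Cov.memL.congr_simp
  have := @CA.Cov.LD.runD.eq_1
  have := @CA.Cov.LD.runD.eq_def
  have := @CA.Cov.LD.runD.congr_simp
  have := @CA.Cov.LD.av.eq_1.{0}
  have := @CA.Cov.LD.av.eq_def.{0}
  have := @CA.Cov.LD.av.congr_simp.{0}
  have := @CA.Cov.Kn.eq_1.{0}
  have := @CA.Cov.Kn.eq_def.{0}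
  have := @CA.Cov.Kn.congr_simp.{0}
  have := @CA.Cov.LD.chkAlt.eq_1
  have := @CA.Cov.LD.chkAlt.eq_def
  have := @CA.Cov.LD.chkAlt.congr_simp
  trivial
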