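/-
Groups with an involution centraliser `2·U₆(2)`, the involution not weakly closed, realise the table of `Fi₂₂`.
-/
import Cfsg.Agent.Cov.F22
import Cfsg.Agent.Cov.Seed

set_option autoImplicit false

namespace CA.Cov

open Cfsg Subgroup CA.Fi CA.TC

def seed22 : List Big := [
  .e [] 3 [] 2 1 18 19 (.mv [2, 1, 0, 1, 2, 1]) (.mv [5, 6, 7, 2, 0, 1, 5, 6, 3, 2, 1, 5, 4, 3, 2, 1, 0, 1, 2, 3, 4, 5, 1, 2, 3, 6, 5, 1, 0, 2, 7, 6, 5, 1]) (.mv [5, 6, 7, 1, 5, 6, 3, 2, 1, 5, 4, 3, 2, 1, 0, 1, 2, 3, 4, 5, 1, 2, 3, 6, 5, 1, 7, 6, 5, 1]),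
  .e [] 3 [] 4 6 9 17 (.mv [5, 6, 1, 5, 2, 1, 0, 1, 2, 5, 1, 6, 5, 6]) (.mv [7, 6, 3, 2, 1, 5, 4, 3, 2, 1, 0, 1, 2, 3, 4, 5, 1, 2, 3, 6, 7, 6]) (.mv [3, 4, 2, 3, 7, 6, 1, 2, 3, 7, 4, 3, 2, 1, 0, 1, 2, 3, 4, 7, 3, 2, 1, 6, 7, 3, 2, 4, 3, 6]),
  .e [0, 1] 3 [] 1 2 18 19 (.mv [2, 0]) (.mv [1, 5, 6, 7, 0, 1, 5, 6, 3, 2, 1, 5, 4, 3, 2, 1, 0, 1, 2, 3, 4, 5, 1, 2, 3, 6, 5, 1, 0, 7, 6, 5, 1, 0]) (.mv [1, 5, 6, 7, 2, 1, 5, 6, 3, 2, 1, 5, 4, 3, 2, 1, 0, 1, 2, 3, 4, 5, 1, 2, 3, 6, 5, 1, 2, 7, 6, 5, 1, 0]),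
  .e [5, 6] 3 [] 4 6 9 17 (.mv [3, 7, 2, 1, 5, 3, 2, 1, 0, 1, 2, 3, 5, 1, 2, 7, 3, 7]) (.mv [3, 2, 1, 5, 4, 3, 2, 1, 0, 1, 2, 3, 4, 5, 1, 2, 3, 7]) (.mv [6, 5, 1, 2, 0, 1, 5, 6, 3, 2, 1, 5, 4, 3, 2, 1, 0, 1, 2, 3, 4, 5, 1, 2, 3, 6, 5, 1, 0, 2, 1, 5, 6, 7]),
  .e [2, 3] 4 [] 2 8 15 20 (.rf [.blk [] 2 [3, 4] 5 7 13, .op 1 5, .op 10 6, .op 7 20, .op 77 4, .op 57 1, .op 77 6, .op 39 112, .op 33 394] [] 2 [3, 18] 1 19) (.rf [.op 596 2, .op 515 1, .op 596 4, .op 6 5, .op 654 14, .op 583 516, .op 654 6, .op 1 2, .op 9 596, .op 584 643, .op 200 230, .op 515 9, .op 1 5, .op 654 10, .op 685 690, .op 515 10, .op 654 9, .op 509 567] [] 8 [14, 21] 1 6) (.rf [.op 545 4, .op 467 1, .op 545 6, .op 540 466, .op 6 5, .op 1 2, .op 14 9, .op 49 32, .op 545 2, .op 626 1, .op 676 466, .op 32 467, .op 322 525, .op 467 6, .op 676 397, .op 467 14, .op 9 545,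 .op 339 657, .op 360 102] [] 5 [7, 15] 1 17),
  .d [.blk [] 2 [3, 4] 5 7 13],
  .d [.op 6 7],
  .d [.op 5 15]]

theorem gk22 : L22.Gk clA22 sw22 [0, 1, 2, 4, 5, 6, 12] :=
  ⟨transU, by decide +kernel, List.mem_cons_self, by decide +kernel, by decide +kernel, by decide, by decide +kernel,
    by decide +kernel, by decide +kernel⟩

theorem chk3_22 : ∀ q < X22.n, chk3 X22 q = true := fun p hp =>
  rng_spec (lo := 0) (hi := 3510) (d := 6) (by decide +kernel) p (Nat.zero_le _) hp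

theorem real_of_full22 {G : Type*} [Group G] [Finite G] {d : G} {e : ℕ → G} (h : Full L22 d e) :
    ∃ e', Real X22 (conjugatesOf d) e' ∧ IsThreeTranspositionClass (conjugatesOf d) ∧ center G = ⊥ := by
  obtain ⟨b, h1, h2, h3⟩ := h.exists_nc gk22 (h.mem_D gk22 (p := 4) (by decide)) (h.ext.com 4 (by decide))
    (h.ext.ne1 4 (by decide)).2 (p := 1) (by decide) (by decide +kernel)
  exact h.main gk22 nest22 trans22 chk3_22 qreal22 (c0 := 0) (s0 := 0) (k0 := 2) (iq := 12) (ic := 1) (ip := 6)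
    (u := [1, 2, 5, 1, 6, 5]) (v := [7, 6, 1, 5, 2, 1]) (w := [5, 6]) (kn := [4, 5]) (known := [4]) (st := seed22) h1 h2
    (List.forall_mem_singleton.2 ⟨by decide, h3⟩) (by decide +kernel) (m := 8) rfl (by decide +kernel)

/-- Groups of type `M̃(22)` realise `X22`. -/
theorem real_of_cent22 {G : Type*} [Group G] [Finite G] {d : G} (hd : orderOf d = 2)
    (hq : IsQuasisimple (centralizer ({d} : Set G))) [((zpowers d).subgroupOf (centralizer ({d} : Set G))).Normal]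
    {F : Type} [Field F] [Fintype F] (hF : Fintype.card F = 4)
    (φ : centralizer ({d} : Set G) ⧸ (zpowers d).subgroupOf (centralizer ({d} : Set G)) ≃* PSU 6 F 2)
    (hn : ∃ g : G, g * d * g⁻¹ ∈ centralizer ({d} : Set G) ∧ g * d * g⁻¹ ≠ d) :
    ∃ e', Real X22 (conjugatesOf d) e' ∧ IsThreeTranspositionClass (conjugatesOf d) ∧ center G = ⊥ :=
  let ⟨_, h⟩ := exists_loc22' hd hq hF φ
  real_of_full22 (full22 h hn)

end CA.Cov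

theorem CA.realizeEqns_Cov_G22 : True := by
  have := @CA.Cov.seed22.eq_1
  have := @CA.Cov.seed22.eq_def
  have := @CA.Cov.seed22.congr_simp
  trivial
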