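/-
The Thompson subgroup of a Sylow 2-subgroup of a group of type M(22).
-/
import Cfsg.Agent.Cov.G22
import Cfsg.Agent.Fi.Main23
import Cfsg.Agent.Fi.IModel22

set_option autoImplicit false
set_option linter.unusedSectionVars false

namespace CA.Cov

open Cfsg Subgroup CA.Fi CA.TC

variable {G : Type*} [Group G] [Finite G] {d : G} {e : ℕ → G} {L : LD}
variable {cl : ℕ × List ℕ × ℕ × ℕ} {sw : List (List ℕ)} {R : List ℕ}

theorem Full.eq_A_cen (h : Full L d e) (k : L.Gk cl sw R) {B : Subgroup G}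
    (hB : B ≤ normalizer (grp (L.a d e) L.N : Set G)) (h1 : ∀ x ∈ B, x * x = 1)
    (h2 : ∀ x ∈ B, ∀ y ∈ B, Commute x y) (hc : 2 ^ L.n ≤ Nat.card B) {x : G} (hx : x ∈ grp (L.a d e) L.N)
    (cx : IsConj d x) (hBx : ∀ b ∈ B, Commute b x) : B = grp (L.a d e) L.N := by
  obtain ⟨g, -, rfl⟩ := h.trans hx cx
  obtain ⟨u, -, eu⟩ := h.uniq (B := B.map (MulAut.conj g⁻¹).toMonoidHom)
    (by
      rintro _ ⟨y, hy, rfl⟩
      have := (hBx y hy).symm.map (MulAut.conj g⁻¹).toMonoidHom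
      simpa [mul_assoc] using this)
    (by rintro _ ⟨y, hy, rfl⟩; rw [← map_mul, h1 y hy, map_one])
    (by rintro _ ⟨y, hy, rfl⟩ _ ⟨z, hz, rfl⟩; exact (h2 y hy z hz).map _)
    (by rwa [card_map_of_injective (MulAut.conj g⁻¹).injective])
  have key : ∀ a ∈ grp (L.a d e) L.N, (g * u⁻¹) * a * (g * u⁻¹)⁻¹ ∈ B := fun a ha => by
    rw [← eu] at ha
    obtain ⟨_, ⟨b, hb, rfl⟩, rfl⟩ := ha
    simpa [mul_assoc] using hb
  have k2 : grp (L.a d e) L.N ≤ (grp (L.a d e) L.N).comap (MulAut.conj (g * u⁻¹)).toMonoidHom :=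
    (closure_le _).2 (by
      rintro _ ⟨i, hi, rfl⟩
      exact h.dn k (isConj_cj (h.mem i hi) _) (hB (key _ (mem_grp hi))))
  refine eq_of_le_of_card_ge (fun b hb => ?_) (h.base.card ▸ hc)
  have : u * (g⁻¹ * b * g) * u⁻¹ ∈ grp (L.a d e) L.N := by
    rw [← eu]; exact ⟨_, ⟨b, hb, rfl⟩, by simp⟩
  have := k2 this
  simpa [mul_assoc] using this

theorem Full.eq_A_norm (h : Full L d e) (k : L.Gk cl sw R) (hN : ¬ 2 ∣ L.N.choose 2) {B : Subgroup G}
    (hB : B ≤ normalizer (grp (L.a d e) L.N : Set G)) (h1 : ∀ x ∈ B, x * x = 1)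
    (h2 : ∀ x ∈ B, ∀ y ∈ B, Commute x y) (hc : 2 ^ L.n ≤ Nat.card B) : B = grp (L.a d e) L.N := by
  classical
  by_contra hne
  have nc : ∀ x ∈ grp (L.a d e) L.N, IsConj d x → ¬ ∀ b ∈ B, Commute b x := fun x hx cx hb =>
    hne (h.eq_A_cen k hB h1 h2 hc hx cx hb)
  let Ω := {x | x ∈ grp (L.a d e) L.N ∧ IsConj d x}
  let _ : MulAction B Ω :=
    { smul := fun n x => ⟨n * x * (n : G)⁻¹, (mem_normalizer_iff.1 (hB n.2) _).1 x.2.1, isConj_cj x.2.2 _⟩
      one_smul := fun x => Subtype.ext (by show (1 : G) * x * 1⁻¹ = x; simp)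
      mul_smul := fun n m x => Subtype.ext (by
        show (n * m : G) * x * (n * m : G)⁻¹ = n * (m * x * (m : G)⁻¹) * (n : G)⁻¹; group) }
  have cΩ : Nat.card Ω = L.N := h.ncard
  have pB : IsPGroup 2 B := fun x => ⟨1, Subtype.ext (by simpa [pow_two] using h1 x x.2)⟩
  obtain ⟨s, hs⟩ := pB.nonempty_fixed_point_of_prime_not_dvd_card (Set.powersetCard Ω 2)
    (by rwa [Set.powersetCard.card, cΩ])
  obtain ⟨x, y, xy, hxy⟩ := Finset.card_eq_two.1 (Set.powersetCard.card_eq s)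
  have sw' : ∀ b ∈ B, ∀ t : Ω, t = x ∨ t = y → b * t * b⁻¹ = x ∨ b * t * b⁻¹ = y := fun b hb t ht => by
    have e1 := congrArg Subtype.val (hs ⟨b, hb⟩)
    rw [Set.powersetCard.coe_smul, hxy] at e1
    have : (⟨b, hb⟩ : B) • t ∈ ({x, y} : Finset Ω) := by
      rw [← e1]; exact Finset.smul_mem_smul_finset (by simpa using ht)
    rcases Finset.mem_insert.1 this with a | a
    · exact Or.inl (congrArg Subtype.val a)
    · exact Or.inr (congrArg Subtype.val (Finset.mem_singleton.1 a))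
  have xy' : (x : G) ≠ y := fun a => xy (Subtype.ext a)
  have mv : ∀ b ∈ B, ¬ Commute b x → b * x * b⁻¹ = y := fun b hb c =>
    (sw' b hb x (Or.inl rfl)).resolve_left fun a => c (mul_inv_eq_iff_eq_mul.1 a)
  obtain ⟨b0, hb0, c0⟩ : ∃ b ∈ B, ¬ Commute b x := by
    have := nc x x.2.1 x.2.2; push Not at this; exact this
  have xB : (x : G) ∉ B := fun a => c0 (h2 _ hb0 _ a)
  have xx : (x : G) * x = 1 := h.sq x.2.2
  have two : ∀ b ∈ B, ¬ Commute b x → Commute (b * b0) x := fun b hb c => by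
    have a1 := mv b hb c
    have a2 := mv b0 hb0 c0
    have : b * (b0 * x * b0⁻¹) * b⁻¹ = x := by
      rw [a2, ← a1, show b * (b * x * b⁻¹) * b⁻¹ = (b * b) * x * (b * b)⁻¹ by group, h1 b hb]; simp
    exact mul_inv_eq_iff_eq_mul.1 (by rw [mul_inv_rev]; simpa only [mul_assoc] using this)
  let B1 : Subgroup G :=
    { carrier := {u | Commute u x ∧ (u ∈ B ∨ u * x ∈ B)}
      one_mem' := ⟨Commute.one_left _, Or.inl B.one_mem⟩
      mul_mem' := by
        rintro u v ⟨cu, hu⟩ ⟨cv, hv⟩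
        refine ⟨cu.mul_left cv, ?_⟩
        rcases hu with hu | hu <;> rcases hv with hv | hv
        · exact Or.inl (B.mul_mem hu hv)
        · exact Or.inr (mul_assoc u v x ▸ B.mul_mem hu hv)
        · exact Or.inr (by rw [mul_assoc, cv.eq, ← mul_assoc]; exact B.mul_mem hu hv)
        · refine Or.inl ?_
          have := B.mul_mem hu hv
          rwa [mul_assoc, ← mul_assoc (x : G), ← cv.eq, mul_assoc v, xx, mul_one] at this
      inv_mem' := by
        rintro u ⟨cu, hu⟩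
        refine ⟨cu.inv_left, hu.imp B.inv_mem fun hu => ?_⟩
        have := B.inv_mem hu
        rwa [mul_inv_rev, inv_eq_self_of_sq xx, ← cu.inv_left.eq] at this }
  have dec : ∀ u ∈ B1, ∃ b ∈ B, Commute b x ∧ (u = b ∨ u = b * x) := fun u hu => by
    rcases hu.2 with a | a
    · exact ⟨u, a, hu.1, Or.inl rfl⟩
    · exact ⟨u * x, a, hu.1.mul_left (Commute.refl _), Or.inr (by rw [mul_assoc, xx, mul_one])⟩
  have eB1 : B1 = grp (L.a d e) L.N := by
    refine h.eq_A_cen k (fun u hu => ?_) (fun u hu => ?_) (fun u hu v hv => ?_) (hc.trans ?_) x.2.1 x.2.2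
      fun b hb => hb.1
    · obtain ⟨b, hb, -, rfl | rfl⟩ := dec u hu
      · exact hB hb
      · exact mul_mem (hB hb) (le_normalizer x.2.1)
    · obtain ⟨b, hb, c, rfl | rfl⟩ := dec u hu
      · exact h1 _ hb
      · rw [← pow_two]; exact sq_eq_one_of_commute (h1 b hb) xx c
    · obtain ⟨b, hb, c, rfl | rfl⟩ := dec u hu <;> obtain ⟨b', hb', c', rfl | rfl⟩ := dec v hv
      · exact h2 _ hb _ hb'
      · exact (h2 _ hb _ hb').mul_right c
      · exact (h2 _ hb _ hb').mul_left c'.symm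
      · exact ((h2 _ hb _ hb').mul_right c).mul_left (c'.symm.mul_right (Commute.refl _))
    · refine Nat.card_le_card_of_injective (fun b : B => if c : Commute (b : G) x then (⟨b, c, Or.inl b.2⟩ : B1)
        else ⟨b * b0 * x, (two _ b.2 c).mul_left (Commute.refl _),
          Or.inr (by rw [mul_assoc, xx, mul_one]; exact B.mul_mem b.2 hb0)⟩) fun b b' hh => ?_
      by_cases c : Commute (b : G) x <;> by_cases c' : Commute (b' : G) x <;>
        simp only [c, c', dif_pos, dif_neg, not_false_eq_true, Subtype.mk.injEq] at hh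
      · exact Subtype.ext hh
      · exact absurd (by
          have := B.mul_mem (B.inv_mem (B.mul_mem b'.2 hb0)) b.2
          rwa [hh, inv_mul_cancel_left] at this) xB
      · exact absurd (by
          have := B.mul_mem (B.inv_mem (B.mul_mem b.2 hb0)) b'.2
          rwa [← hh, inv_mul_cancel_left] at this) xB
      · exact Subtype.ext (mul_right_cancel (mul_right_cancel hh))
  obtain ⟨z, zx, zy⟩ : ∃ z : Ω, z ≠ x ∧ z ≠ y := by
    by_contra hh
    push Not at hh
    have : Nat.card Ω ≤ Nat.card Bool := Nat.card_le_card_of_surjective (fun b : Bool => if b then x else y)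
      fun z => by
        by_cases a : z = x
        · exact ⟨true, a.symm⟩
        · exact ⟨false, (hh z a).symm⟩
    have h5 := h.N5
    rw [cΩ] at this
    simp at this
    omega
  obtain ⟨b, hb, -, a | a⟩ := dec z (eB1 ▸ z.2.1)
  · exact nc z z.2.1 z.2.2 fun b' hb' => a ▸ h2 _ hb' _ hb
  · have e1 : (z : G) * x = b := by rw [a, mul_assoc, xx, mul_one]
    have e2 : (z : G) * x = (b0 * z * b0⁻¹) * y := by
      rw [← mv b0 hb0 c0, show b0 * z * b0⁻¹ * (b0 * x * b0⁻¹) = b0 * (z * x) * b0⁻¹ by group, e1,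
        (h2 _ hb0 _ hb).eq, mul_inv_cancel_right]
    have m : b0 * z * b0⁻¹ ∈ grp (L.a d e) L.N := (mem_normalizer_iff.1 (hB hb0) _).1 z.2.1
    rw [(h.b0.comm m y.2.1).eq] at e2
    rcases h.pu k z.2.2 x.2.2 y.2.2 (isConj_cj z.2.2 b0) (h.b0.comm z.2.1 x.2.1) (fun a => zx (Subtype.ext a))
      (h.b0.comm y.2.1 m) e2 with t | t
    · exact zy (Subtype.ext t.symm)
    · exact xy' t.symm

theorem Full.thompson_syl (h : Full L d e) (k : L.Gk cl sw R) (hN : ¬ 2 ∣ L.N.choose 2) (T : Sylow 2 G) :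
    closure {x : G | IsConj d x ∧ x ∈ (T : Subgroup G)} = thompsonSubgroupOf 2 (T : Subgroup G) := by
  obtain ⟨g, hg⟩ := h.syl_norm k T.isPGroup'
  let κ := (MulAut.conj g).toMonoidHom.comp (T : Subgroup G).subtype
  have hκ : Function.Injective κ := (MulAut.conj g).injective.comp Subtype.val_injective
  have hA : ∀ a ∈ grp (L.a d e) L.N, g⁻¹ * a * g ∈ (T : Subgroup G) := fun a ha => by
    have p1 : IsPGroup 2 ↥(κ.range ⊔ grp (L.a d e) L.N) :=
      (T.isPGroup'.of_surjective κ.rangeRestrict κ.rangeRestrict_surjective).to_sup_of_normal_right' h.b0.isPGroup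
        (by rintro _ ⟨x, rfl⟩; exact hg x x.2)
    have p2 := T.is_maximal' (p1.map (MulAut.conj g⁻¹).toMonoidHom)
      (fun x hx => ⟨g * x * g⁻¹, mem_sup_left ⟨⟨x, hx⟩, rfl⟩, by simp [mul_assoc]⟩)
    rw [← p2]
    exact ⟨a, mem_sup_right ha, by simp⟩
  have key : ∀ B : Subgroup (T : Subgroup G), IsElementaryAbelian 2 B →
      2 ^ L.n ≤ Nat.card B → B.map κ = grp (L.a d e) L.N := fun B hB hc => by
    refine h.eq_A_norm k hN ?_ ?_ ?_ ?_
    · rintro _ ⟨x, -, rfl⟩; exact hg x x.2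
    · rintro _ ⟨x, hx, rfl⟩; rw [← map_mul, ← pow_two, hB.2 x hx, map_one]
    · rintro _ ⟨x, hx, rfl⟩ _ ⟨y, hy, rfl⟩
      exact Commute.map (congrArg Subtype.val (hB.1.is_comm.comm ⟨x, hx⟩ ⟨y, hy⟩)) κ
    · rwa [card_map_of_injective hκ]
  let B0 : Subgroup (T : Subgroup G) := (grp (L.a d e) L.N).comap κ
  have eB : IsElementaryAbelian 2 B0 := ⟨⟨⟨fun x y => Subtype.ext (hκ (by
      simp only [coe_mul, map_mul]; exact (h.b0.comm x.2 y.2).eq))⟩⟩,
    fun x hx => hκ (by simp only [pow_two, map_mul, map_one]; exact h.b0.sq hx)⟩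
  have cB : 2 ^ L.n ≤ Nat.card B0 := by
    rw [← h.base.card]
    refine Nat.card_le_card_of_injective (fun x => ⟨⟨g⁻¹ * x * g, hA _ x.2⟩, ?_⟩) ?_
    · show g * (g⁻¹ * x * g) * g⁻¹ ∈ grp (L.a d e) L.N
      simp [mul_assoc]
    · intro x y e1
      have : g⁻¹ * x * g = g⁻¹ * y * g := congrArg (fun z => (z.1.1 : G)) e1
      exact Subtype.ext (by simpa using this)
  have mx : maxElementaryAbelianSubgroups 2 (T : Subgroup G) = {B0} := by
    ext B
    constructor
    · rintro ⟨b1, b2⟩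
      exact map_injective hκ ((key B b1 (cB.trans (b2 B0 eB))).trans (key B0 eB cB).symm)
    · rintro rfl
      refine ⟨eB, fun B hB => ?_⟩
      by_contra hlt
      exact hlt (by rw [map_injective hκ ((key B hB (by omega)).trans (key B0 eB cB).symm)])
  rw [thompsonSubgroupOf, thompsonSubgroup, mx, sSup_singleton]
  refine le_antisymm ((closure_le _).2 fun x hx => ⟨⟨x, hx.2⟩, h.dn k (isConj_cj hx.1 g) (hg x hx.2), rfl⟩) ?_
  rintro _ ⟨x, hx, rfl⟩
  have : grp (L.a d e) L.N ≤ (closure {x : G | IsConj d x ∧ x ∈ (T : Subgroup G)}).comap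
      (MulAut.conj g⁻¹).toMonoidHom := (closure_le _).2 (by
    rintro _ ⟨i, hi, rfl⟩
    refine subset_closure ⟨isConj_cj (h.mem i hi) _, ?_⟩
    simpa using hA _ (mem_grp hi))
  have := this hx
  simpa [κ, mul_assoc] using this

theorem full_of_real22 {D : Set G} (h : Real X22 D e) (hD : closure D = ⊤) (hZ : center G = ⊥) :
    (∃ f, Full L22 (e 0) f) ∧ ∀ x, x ∈ D ↔ IsConj (e 0) x := by
  have m0 : e 0 ∈ D := h.mem 0 (by decide)
  have hc := cent22 h hD hZ
  have hz := h.center_nb (zmem22 h hD hZ) fun _ => zcent22 h hD hZ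
  have hq := h.qs22 hD hZ
  obtain ⟨e', h1, h2, h3, -⟩ := (h.lower nest22).quot (h.lower nest22).sepU rfl
  have φ : Nonempty (closure (nb D (e 0)) ⧸ center (closure (nb D (e 0))) ≃* PSU 6 U6.F4 2) := h1.isoU h2 h3
  clear h1 h2 h3 e'
  change _ = closure (nb D (e 0)) at hc
  have cj' : ∀ x, x ∈ D ↔ IsConj (e 0) x := fun x =>
    ⟨fun hx => isConj_iff.2 (h.isConj trans22 m0 hx), fun hx => by
      obtain ⟨g, rfl⟩ := isConj_iff.1 hx
      exact h.conj_mem (hD ▸ mem_top g) m0⟩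
  refine ⟨?_, cj'⟩
  revert hq hz φ
  rw [← hc]
  rintro hz hq ⟨φ⟩
  have : ((zpowers (e 0)).subgroupOf (centralizer ({e 0} : Set G))).Normal := hz ▸ inferInstance
  obtain ⟨f, hf⟩ := exists_loc22' (h.tt22.1 _ m0) hq U6.card_F4 ((QuotientGroup.quotientMulEquivOfEq hz.symm).trans φ)
  refine ⟨f, full22 hf ?_⟩
  obtain ⟨g, hg⟩ := isConj_iff.1 ((cj' _).1 (h.mem 1 (by decide)))
  refine ⟨g, hg ▸ mem_cent.2 ?_, hg ▸ fun a => ?_⟩
  · exact (h.commute_zero_iff nest22 (by decide)).2 (by decide)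
  · exact absurd (h.inj 1 (by decide) 0 (by decide) a) (by decide)

end CA.Cov
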