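import Cfsg.Agent.Lin.Basic

/-! Central extensions of `PSL(3,4)` by elementary abelian 2-groups: the part of the kernel inside
the commutator subgroup has order at most 4 (transfer to the preimage of a Sylow 2-subgroup). -/

set_option autoImplicit false

open scoped commutatorElement

namespace CA.Cov

theorem l34_card_split {P G : Type*} [Group P] [Group G] (π : P →* G) (N : Subgroup P) :
    Nat.card N = Nat.card (N ⊓ π.ker : Subgroup P) * Nat.card (N.map π) := by
  rw [← Subgroup.relIndex_ker, Subgroup.relIndex, ← Subgroup.card_mul_index (π.ker.subgroupOf N)]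
  congr 1
  rw [← Subgroup.inf_subgroupOf_right, inf_comm]
  exact Nat.card_congr (Subgroup.subgroupOfEquivOfLe inf_le_left).toEquiv

theorem l34_anti {P : Type*} [Group P] {u v z : P} (hz : ∀ x, x * z = z * x) (hzz : z * z = 1)
    (hu : u * u = z) (hv : v * v = z) (huv : (u * v) * (u * v) = z) : v * u = z * (u * v) := by
  have h1 : u * (v * u) * v = z := by rw [← huv]; group
  have h2 : u * (z * (u * v)) * v = z := by
    calc u * (z * (u * v)) * v = (u * z) * u * (v * v) := by group
      _ = z * (u * u) * (v * v) := by rw [hz u]; group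
      _ = z * (z * z) := by rw [hu, hv]; group
      _ = z := by rw [hzz, mul_one]
  exact mul_left_cancel (mul_right_cancel (h1.trans h2.symm))

theorem l34_comm_of_sq {P : Type*} [Group P] {u v : P} (hu : u * u = 1) (hv : v * v = 1)
    (huv : (u * v) * (u * v) = 1) : u * v = v * u := by
  have := l34_anti (z := 1) (fun x => by simp) (by simp) hu hv huv
  rw [this, one_mul]

section

variable {P G F : Type*} [Group P] [Group G] [Field F] (π : P →* G)
  (hc : ∀ z, π z = 1 → ∀ y, y * z = z * y) (he : ∀ z, π z = 1 → z * z = 1)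

include hc he in
theorem l34_sq_conj (hs : Function.Surjective π) {p q : P} (hp : π (p * p) = 1)
    (h : IsConj (π p) (π q)) : q * q = p * p := by
  obtain ⟨g, hg⟩ := isConj_iff.1 h
  obtain ⟨r, rfl⟩ := hs g
  have h1 : π ((r * p * r⁻¹)⁻¹ * q) = 1 := by simp [← hg, mul_assoc]
  set e := (r * p * r⁻¹)⁻¹ * q with hdef
  have hq : q = r * p * r⁻¹ * e := by rw [hdef]; group
  calc q * q = r * p * r⁻¹ * (e * (r * p * r⁻¹)) * e := by rw [hq]; group
    _ = r * p * r⁻¹ * ((r * p * r⁻¹) * e) * e := by rw [← hc e h1 (r * p * r⁻¹)]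
    _ = r * (p * p) * r⁻¹ * (e * e) := by group
    _ = p * p := by rw [he e h1, hc _ hp r]; group

include hc he in
/-- The abstract form: `x a b c` is a Heisenberg group over a field with four elements of odd index
in `G`, and all non-trivial elements of its two maximal elementary abelian subgroups are conjugate. -/
theorem l34_core [Finite P] [Fintype F] (hF : Fintype.card F = 4) (hs : Function.Surjective π)
    (x : F → F → F → G)
    (hmul : ∀ a b c a' b' c', x a b c * x a' b' c' = x (a + a') (b + b') (c + c' + a * b'))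
    (hinj : ∀ a b c a' b' c', x a b c = x a' b' c' → a = a' ∧ b = b' ∧ c = c')
    (hV : ∀ a c, (a ≠ 0 ∨ c ≠ 0) → IsConj (x 0 0 1) (x a 0 c))
    (hW : ∀ b c, (b ≠ 0 ∨ c ≠ 0) → IsConj (x 0 0 1) (x 0 b c))
    (hG : Nat.card G = 20160) :
    Nat.card (commutator P ⊓ π.ker : Subgroup P) ≤ 4 := by
  classical
  have : Finite G := Finite.of_surjective π hs
  have h2 : ∀ a : F, a + a = 0 := fun a => by
    have h4 : ((4 : ℕ) : F) = 0 := by rw [← hF]; exact FiniteField.cast_card_eq_zero F
    have : (2 : F) * 2 = 0 := by rw [← h4]; norm_num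
    have h : (2 : F) = 0 := by simpa using this
    rw [← two_mul, h, zero_mul]
  obtain ⟨ω, hω0, hω1⟩ : ∃ ω : F, ω ≠ 0 ∧ ω ≠ 1 := by
    by_contra hcon
    push Not at hcon
    have : (Finset.univ : Finset F) ⊆ {0, 1} := fun a _ => by
      by_cases h : a = 0
      · simp [h]
      · simp [hcon a h]
    have h1 := Finset.card_le_card this
    have h3 : ({0, 1} : Finset F).card ≤ 2 := Finset.card_le_two
    rw [Finset.card_univ, hF] at h1
    omega
  have hω2 : 1 + ω ≠ 0 := fun h => hω1 (by linear_combination h - h2 1 + h2 ω - h2 ω)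
  have hall : ∀ a : F, a = 0 ∨ a = 1 ∨ a = ω ∨ a = 1 + ω := fun a => by
    have hcard : ({0, 1, ω, 1 + ω} : Finset F).card = 4 := by
      have e1 : (1 : F) ≠ 1 + ω := fun h => hω0 (by linear_combination -h)
      have e2 : ω ≠ 1 + ω := fun h => one_ne_zero (α := F) (by linear_combination -h)
      rw [Finset.card_insert_of_notMem, Finset.card_insert_of_notMem, Finset.card_pair e2]
      · simp [e1, hω1.symm]
      · simp [hω0.symm, hω2.symm]
    have : ({0, 1, ω, 1 + ω} : Finset F) = Finset.univ :=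
      Finset.eq_univ_of_card _ (by rw [hcard, hF])
    have h := this ▸ Finset.mem_univ a
    simpa using h
  have hx0 : x 0 0 0 = 1 := by
    have := hmul 0 0 0 0 0 0
    simp only [add_zero, mul_zero] at this
    exact mul_eq_left.1 this
  choose l hl using hs
  have hs : Function.Surjective π := fun g => ⟨l g, hl g⟩
  set z := l (x 0 0 1) * l (x 0 0 1) with hzdef
  have hz1 : π z = 1 := by rw [hzdef, map_mul, hl, hmul]; simp [h2, hx0]
  have hsq : ∀ q, IsConj (x 0 0 1) (π q) → q * q = z := fun q hq =>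
    l34_sq_conj π hc he hs hz1 (by rwa [hl])
  have hz : z = 1 := by
    have hzc := hc z hz1
    have hzz := he z hz1
    set u := l (x 1 0 0)
    set v := l (x 0 0 1)
    set w := l (x 0 0 ω)
    have hu : π u = x 1 0 0 := hl _
    have hv : π v = x 0 0 1 := hl _
    have hw : π w = x 0 0 ω := hl _
    have su := hsq u (by rw [hu]; exact hV _ _ (by simp))
    have sv := hsq v (by rw [hv])
    have sw := hsq w (by rw [hw]; exact hV _ _ (by simp [hω0]))
    have a1 := l34_anti hzc hzz su sv (hsq _ (by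
      rw [map_mul, hu, hv, hmul]; simpa using hV 1 1 (by simp)))
    have a2 := l34_anti hzc hzz su sw (hsq _ (by
      rw [map_mul, hu, hw, hmul]; simpa using hV 1 ω (by simp)))
    have a3 := l34_anti hzc hzz su (hsq (v * w) (by
      rw [map_mul, hv, hw, hmul]; simpa using hV 0 (1 + ω) (by simp [hω2]))) (hsq _ (by
      rw [map_mul, map_mul, hu, hv, hw, hmul, hmul]; simpa using hV 1 (1 + ω) (by simp)))
    have a4 : v * w * u = u * (v * w) := by
      calc v * w * u = v * (w * u) := by group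
        _ = (v * z) * u * w := by rw [a2]; group
        _ = z * (v * u) * w := by rw [hzc v]; group
        _ = (z * z) * (u * (v * w)) := by rw [a1]; group
        _ = u * (v * w) := by rw [hzz, one_mul]
    rw [a4] at a3
    exact mul_eq_right.1 a3.symm
  have sqV : ∀ q a c, π q = x a 0 c → q * q = 1 := fun q a c hq => by
    by_cases h : a ≠ 0 ∨ c ≠ 0
    · rw [← hz]; exact hsq q (by rw [hq]; exact hV a c h)
    · push Not at h
      exact he q (by rw [hq, h.1, h.2, hx0])
  have sqW : ∀ q b c, π q = x 0 b c → q * q = 1 := fun q b c hq => by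
    by_cases h : b ≠ 0 ∨ c ≠ 0
    · rw [← hz]; exact hsq q (by rw [hq]; exact hW b c h)
    · push Not at h
      exact he q (by rw [hq, h.1, h.2, hx0])
  have cV : ∀ p q a c a' c', π p = x a 0 c → π q = x a' 0 c' → p * q = q * p :=
    fun p q a c a' c' hp hq => l34_comm_of_sq (sqV _ _ _ hp) (sqV _ _ _ hq)
      (sqV _ (a + a') (c + c') (by rw [map_mul, hp, hq, hmul]; simp))
  have cW : ∀ p q b c b' c', π p = x 0 b c → π q = x 0 b' c' → p * q = q * p :=
    fun p q b c b' c' hp hq => l34_comm_of_sq (sqW _ _ _ hp) (sqW _ _ _ hq)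
      (sqW _ (b + b') (c + c') (by rw [map_mul, hp, hq, hmul]; simp))
  let A : F → P := fun t => l (x t 0 0)
  let B : F → P := fun t => l (x 0 t 0)
  have hA : ∀ t, π (A t) = x t 0 0 := fun t => hl _
  have hB : ∀ t, π (B t) = x 0 t 0 := fun t => hl _
  have hK : ∀ s t, π ⁅A s, B t⁆ = x 0 0 (s * t) := fun s t => by
    have : ⁅A s, B t⁆ = (A s * B t) * (B t * A s)⁻¹ := by rw [commutatorElement_def]; group
    rw [this, map_mul, map_inv, map_mul, map_mul, hA, hB, mul_inv_eq_iff_eq_mul, hmul, hmul, hmul]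
    simp
  let S : Set P := {p | π p = 1 ∨ p = A 1 ∨ p = A ω ∨ p = B 1 ∨ p = B ω}
  let H : Subgroup P := Subgroup.closure S
  let T : Finset P := {⁅A 1, B 1⁆, ⁅A 1, B ω⁆, ⁅A ω, B 1⁆, ⁅A ω, B ω⁆}
  let N : Subgroup P := Subgroup.closure (T : Set P)
  have hN : ∀ n ∈ N, ∃ c, π n = x 0 0 c := fun n hn => by
    induction hn using Subgroup.closure_induction with
    | mem p hp =>
      simp only [T, Finset.coe_insert, Finset.coe_singleton, Set.mem_insert_iff,
        Set.mem_singleton_iff] at hp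
      rcases hp with rfl | rfl | rfl | rfl <;> exact ⟨_, hK _ _⟩
    | one => exact ⟨0, by rw [map_one, hx0]⟩
    | mul p q _ _ hp hq =>
      obtain ⟨c, hp⟩ := hp
      obtain ⟨d, hq⟩ := hq
      exact ⟨c + d, by rw [map_mul, hp, hq, hmul]; simp⟩
    | inv p _ hp =>
      obtain ⟨c, hp⟩ := hp
      refine ⟨c, ?_⟩
      rw [map_inv, hp, inv_eq_iff_mul_eq_one, hmul]
      simp [h2, hx0]
  have hcent : ∀ n c, π n = x 0 0 c → ∀ p ∈ H, p * n = n * p := fun n c hn p hp => by
    induction hp using Subgroup.closure_induction with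
    | mem p hp =>
      rcases hp with hp | rfl | rfl | rfl | rfl
      · exact (hc p hp n).symm
      · exact cV _ _ _ _ _ _ (hA _) hn
      · exact cV _ _ _ _ _ _ (hA _) hn
      · exact cW _ _ _ _ _ _ (hB _) hn
      · exact cW _ _ _ _ _ _ (hB _) hn
    | one => simp
    | mul p q _ _ hp hq => rw [mul_assoc, hq, ← mul_assoc, hp, mul_assoc]
    | inv p _ hp => rw [inv_mul_eq_iff_eq_mul, ← mul_assoc, hp]; group
  have hcentN : ∀ n ∈ N, ∀ p ∈ H, p * n * p⁻¹ = n := fun n hn p hp => by
    obtain ⟨c, hc⟩ := hN n hn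
    rw [hcent n c hc p hp]; group
  have hAB : ∀ s t, (s = 1 ∨ s = ω) → (t = 1 ∨ t = ω) → ⁅A s, B t⁆ ∈ N := fun s t hs ht => by
    apply Subgroup.subset_closure
    rcases hs with rfl | rfl <;> rcases ht with rfl | rfl <;> simp [T]
  have hone : ∀ p q : P, p * q = q * p → ⁅p, q⁆ ∈ N := fun p q h => by
    rw [commutatorElement_eq_one_iff_mul_comm.2 h]; exact N.one_mem
  have hBA : ∀ s t, (s = 1 ∨ s = ω) → (t = 1 ∨ t = ω) → ⁅B t, A s⁆ ∈ N := fun s t hs ht => by
    rw [← commutatorElement_inv]; exact N.inv_mem (hAB s t hs ht)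
  have hcomm : ∀ p ∈ H, ∀ q ∈ H, ⁅p, q⁆ ∈ N := fun p hp q hq => by
    induction hp, hq using Subgroup.closure_induction₂ with
    | mem p q hp hq =>
      rcases hp with hp | hp
      · exact hone _ _ (hc p hp q).symm
      rcases hq with hq | hq
      · exact hone _ _ (hc q hq p)
      rcases hp with rfl | rfl | rfl | rfl <;> rcases hq with rfl | rfl | rfl | rfl <;>
      first
        | exact hone _ _ (cV _ _ _ _ _ _ (hA _) (hA _))
        | exact hone _ _ (cW _ _ _ _ _ _ (hB _) (hB _))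
        | exact hAB _ _ (by simp) (by simp)
        | exact hBA _ _ (by simp) (by simp)
    | one_left p _ => simp
    | one_right p _ => simp
    | mul_left p q r hp _ _ h1 h2 =>
      have : ⁅p * q, r⁆ = (p * ⁅q, r⁆ * p⁻¹) * ⁅p, r⁆ := by
        simp only [commutatorElement_def]; group
      rw [this, hcentN _ h2 p hp]
      exact N.mul_mem h2 h1
    | mul_right q r p hq _ _ h1 h2 =>
      have : ⁅p, q * r⁆ = ⁅p, q⁆ * (q * ⁅p, r⁆ * q⁻¹) := by
        simp only [commutatorElement_def]; group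
      rw [this, hcentN _ h2 q hq]
      exact N.mul_mem h1 h2
    | inv_left p q hp _ h =>
      have : ⁅p⁻¹, q⁆ = p⁻¹ * ⁅p, q⁆⁻¹ * p⁻¹⁻¹ := by
        simp only [commutatorElement_def]; group
      rw [this, hcentN _ (N.inv_mem h) _ (H.inv_mem hp)]
      exact N.inv_mem h
    | inv_right p q _ hq h =>
      have : ⁅p, q⁻¹⁆ = q⁻¹ * ⁅p, q⁆⁻¹ * q⁻¹⁻¹ := by
        simp only [commutatorElement_def]; group
      rw [this, hcentN _ (N.inv_mem h) _ (H.inv_mem hq)]
      exact N.inv_mem h
  -- order of `N`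
  have hNsq : ∀ n ∈ N, n * n = 1 := fun n hn => by
    obtain ⟨c, hc⟩ := hN n hn
    exact sqV n 0 c hc
  have hN16 : Nat.card N ≤ 16 := by
    let _ : CommGroup N :=
      { mul_comm := fun a b => Subtype.ext (l34_comm_of_sq (hNsq _ a.2) (hNsq _ b.2)
          (hNsq _ (N.mul_mem a.2 b.2))) }
    have h1 := card_dvd_exponent_pow_rank' N (n := 2) (fun g => Subtype.ext (by
      rw [pow_two]; exact hNsq _ g.2))
    have h3 : Group.rank N ≤ 4 := (Subgroup.rank_closure_finset_le_card T).trans Finset.card_le_four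
    calc Nat.card N ≤ 2 ^ Group.rank N := Nat.le_of_dvd (by positivity) h1
      _ ≤ 2 ^ 4 := Nat.pow_le_pow_right (by norm_num) h3
  have hNx : ∀ c, x 0 0 c ∈ N.map π := fun c => by
    have e1 : x 0 0 1 ∈ N.map π := ⟨_, hAB 1 1 (by simp) (by simp), by rw [hK]; simp⟩
    have e2 : x 0 0 ω ∈ N.map π := ⟨_, hAB 1 ω (by simp) (by simp), by rw [hK]; simp⟩
    rcases hall c with rfl | rfl | rfl | rfl
    · rw [hx0]; exact one_mem _
    · exact e1
    · exact e2
    · have := mul_mem e1 e2
      rw [hmul] at this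
      simpa using this
  have hN4 : 4 ≤ Nat.card (N.map π) := by
    have := Nat.card_le_card_of_injective (fun c : F => (⟨x 0 0 c, hNx c⟩ : N.map π))
      (fun c d h => (hinj _ _ _ _ _ _ (congrArg Subtype.val h)).2.2)
    rwa [Nat.card_eq_fintype_card, hF] at this
  have hNE : Nat.card (N ⊓ π.ker : Subgroup P) ≤ 4 := by
    have := l34_card_split π N
    nlinarith
  -- index of `H`
  have hker : π.ker ≤ H := fun p hp => Subgroup.subset_closure (Or.inl hp)
  have hNH : N ≤ H := by
    have m : ∀ p q, p ∈ S → q ∈ S → ⁅p, q⁆ ∈ H := fun p q hp hq => by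
      have hp' : p ∈ H := Subgroup.subset_closure hp
      have hq' : q ∈ H := Subgroup.subset_closure hq
      exact H.mul_mem (H.mul_mem (H.mul_mem hp' hq') (H.inv_mem hp')) (H.inv_mem hq')
    rw [Subgroup.closure_le]
    intro p hp
    simp only [T, Finset.coe_insert, Finset.coe_singleton, Set.mem_insert_iff,
      Set.mem_singleton_iff] at hp
    rcases hp with rfl | rfl | rfl | rfl <;> exact m _ _ (by simp [S]) (by simp [S])
  have hHx : ∀ a b c, x a b c ∈ H.map π := fun a b c => by
    have ea : ∀ a, x a 0 0 ∈ H.map π := fun a => by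
      have e1 : x 1 0 0 ∈ H.map π := ⟨A 1, Subgroup.subset_closure (by simp [S]), hA _⟩
      have e2 : x ω 0 0 ∈ H.map π := ⟨A ω, Subgroup.subset_closure (by simp [S]), hA _⟩
      rcases hall a with rfl | rfl | rfl | rfl
      · rw [hx0]; exact one_mem _
      · exact e1
      · exact e2
      · have := mul_mem e1 e2
        rw [hmul] at this
        simpa using this
    have eb : ∀ a, x 0 a 0 ∈ H.map π := fun a => by
      have e1 : x 0 1 0 ∈ H.map π := ⟨B 1, Subgroup.subset_closure (by simp [S]), hB _⟩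
      have e2 : x 0 ω 0 ∈ H.map π := ⟨B ω, Subgroup.subset_closure (by simp [S]), hB _⟩
      rcases hall a with rfl | rfl | rfl | rfl
      · rw [hx0]; exact one_mem _
      · exact e1
      · exact e2
      · have := mul_mem e1 e2
        rw [hmul] at this
        simpa using this
    have := mul_mem (mul_mem (eb b) (ea a)) (Subgroup.map_mono hNH (hNx c))
    rw [hmul, hmul] at this
    simpa using this
  let U : Subgroup G :=
    { carrier := Set.range (fun t : F × F × F => x t.1 t.2.1 t.2.2)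
      one_mem' := ⟨(0, 0, 0), hx0⟩
      mul_mem' := by
        rintro _ _ ⟨⟨a, b, c⟩, rfl⟩ ⟨⟨a', b', c'⟩, rfl⟩
        exact ⟨(_, _, _), (hmul _ _ _ _ _ _).symm⟩
      inv_mem' := by
        rintro _ ⟨⟨a, b, c⟩, rfl⟩
        refine ⟨(a, b, c + a * b), ?_⟩
        symm
        rw [inv_eq_iff_mul_eq_one, hmul, h2, h2, ← hx0]
        congr 1
        linear_combination h2 c + h2 (a * b) }
  have hU : Nat.card U = 64 := by
    have : Nat.card U = Nat.card (F × F × F) :=
      Nat.card_range_of_injective (f := fun t : F × F × F => x t.1 t.2.1 t.2.2)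
        (fun s t h => by
          obtain ⟨h1, h2, h3⟩ := hinj _ _ _ _ _ _ h
          exact Prod.ext h1 (Prod.ext h2 h3))
    rw [this]
    simp [hF]
  have hUi : U.index = 315 := by
    have := U.card_mul_index
    rw [hU, hG] at this
    omega
  have hodd : H.index ∣ 315 := by
    rw [← H.index_map_eq hs hker, ← hUi]
    apply Subgroup.index_dvd_of_le
    rintro _ ⟨t, rfl⟩
    exact hHx _ _ _
  refine le_trans (Subgroup.card_le_of_le ?_) hNE
  rintro e ⟨he1, he2⟩
  refine ⟨?_, he2⟩
  have he3 : π e = 1 := he2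
  have key : ∀ (k : ℕ) (g₀ : P), g₀⁻¹ * e ^ k * g₀ ∈ H → g₀⁻¹ * e ^ k * g₀ = e ^ k :=
    fun k g _ => by rw [hc (e ^ k) (by rw [map_pow, he3, one_pow]) g⁻¹]; group
  have t1 := MonoidHom.transfer_eq_pow (Abelianization.of : H →* Abelianization H) e key
  have t2 : MonoidHom.transfer (Abelianization.of : H →* Abelianization H) e = 1 :=
    Abelianization.commutator_subset_ker _ he1
  rw [t2] at t1
  have t3 : e ^ H.index ∈ (commutator H).map H.subtype :=
    ⟨_, (by
      rw [← Abelianization.ker_of]; exact t1.symm : (⟨e ^ H.index, _⟩ : H) ∈ commutator H), rfl⟩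
  have t4 : (commutator H).map H.subtype ≤ N := by
    rw [Subgroup.map_subtype_commutator, Subgroup.commutator_le]
    exact hcomm
  have t5 : e ^ H.index = e := by
    obtain ⟨k, hk⟩ : Odd H.index := Odd.of_dvd_nat (by decide) hodd
    rw [hk, pow_succ, pow_mul, pow_two, he e he3, one_pow, one_mul]
  exact t5 ▸ t4 t3

end

open Matrix in
theorem l34_psl {P F : Type*} [Group P] [Finite P] [Field F] [Fintype F] [DecidableEq F]
    (hF : Fintype.card F = 4) (π : P →* ProjectiveSpecialLinearGroup (Fin 3) F)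
    (hc : ∀ z, π z = 1 → ∀ y, y * z = z * y) (he : ∀ z, π z = 1 → z * z = 1)
    (hs : Function.Surjective π) : Nat.card (commutator P ⊓ π.ker : Subgroup P) ≤ 4 := by
  let u : F → F → F → SpecialLinearGroup (Fin 3) F := fun a b c =>
    ⟨!![1, a, c; 0, 1, b; 0, 0, 1], by simp [det_fin_three]⟩
  let ρ : SpecialLinearGroup (Fin 3) F →* ProjectiveSpecialLinearGroup (Fin 3) F :=
    QuotientGroup.mk' _
  have hconj : ∀ (g : Matrix (Fin 3) (Fin 3) F) (_ : g.det = 1)
      (s t : SpecialLinearGroup (Fin 3) F), g * s.1 = t.1 * g → IsConj (ρ s) (ρ t) :=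
    fun g hg s t h => ρ.map_isConj (isConj_iff.2 ⟨⟨g, hg⟩,
      mul_inv_eq_iff_eq_mul.2 (Subtype.ext h)⟩)
  refine l34_core π hc he hF hs (fun a b c => ρ (u a b c)) ?_ ?_ ?_ ?_ ?_
  · intro a b c a' b' c'
    rw [← map_mul]
    congr 1
    apply Subtype.ext
    change (!![1, a, c; 0, 1, b; 0, 0, 1] : Matrix (Fin 3) (Fin 3) F) *
      !![1, a', c'; 0, 1, b'; 0, 0, 1] = !![1, a + a', c + c' + a * b'; 0, 1, b + b'; 0, 0, 1]
    ext i j
    fin_cases i <;> fin_cases j <;> simp [Matrix.mul_apply, Fin.sum_univ_three] <;> ring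
  · intro a b c a' b' c' h
    obtain ⟨z, hz, hz'⟩ := (QuotientGroup.mk'_eq_mk' _).1 h
    obtain ⟨r, -, hr⟩ := Matrix.SpecialLinearGroup.mem_center_iff.1 hz
    have e : ∀ i j, ((u a b c : Matrix (Fin 3) (Fin 3) F) * (scalar (Fin 3) r)) i j =
        (u a' b' c' : Matrix (Fin 3) (Fin 3) F) i j := fun i j => by
      rw [hr, ← hz']; rfl
    have e0 := e 0 0
    have e1 := e 0 1
    have e2 := e 1 2
    have e3 := e 0 2
    simp [u, Matrix.mul_apply, Fin.sum_univ_three] at e0 e1 e2 e3
    subst e0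
    simp_all
  · intro a c h
    by_cases hc0 : c = 0
    · have ha : a ≠ 0 := by tauto
      refine hconj !![1, 0, 0; 0, 0, a⁻¹; 0, -a, 0] (by simp [det_fin_three, ha]) _ _ ?_
      ext i j
      fin_cases i <;> fin_cases j <;> simp [u, Matrix.mul_apply, Fin.sum_univ_three, hc0, ha]
    · refine hconj !![1, 0, 0; 0, c, 0; 0, -a, c⁻¹] (by simp [det_fin_three, hc0]) _ _ ?_
      ext i j
      fin_cases i <;> fin_cases j <;> simp [u, Matrix.mul_apply, Fin.sum_univ_three, hc0] <;> ring
  · intro b c h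
    by_cases hc0 : c = 0
    · have hb : b ≠ 0 := by tauto
      refine hconj !![0, -b⁻¹, 0; b, 0, 0; 0, 0, 1] (by simp [det_fin_three, hb]) _ _ ?_
      ext i j
      fin_cases i <;> fin_cases j <;> simp [u, Matrix.mul_apply, Fin.sum_univ_three, hc0]
    · refine hconj !![c, 0, 0; b, c⁻¹, 0; 0, 0, 1] (by simp [det_fin_three, hc0]) _ _ ?_
      ext i j
      fin_cases i <;> fin_cases j <;> simp [u, Matrix.mul_apply, Fin.sum_univ_three]
  · have h := Cfsg.Agent.Lin.card_PSL hF 3 (by norm_num)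
    rw [Fin.prod_univ_three] at h
    have h' : 3 * (3 * Nat.card (ProjectiveSpecialLinearGroup (Fin 3) F)) = 181440 := by
      have e1 : Nat.gcd 3 (4 - 1) = 3 := by decide
      have e2 : (4 ^ 3 - 4 ^ ((0 : Fin 3) : ℕ)) * (4 ^ 3 - 4 ^ ((1 : Fin 3) : ℕ)) *
        (4 ^ 3 - 4 ^ ((2 : Fin 3) : ℕ)) = 181440 := by decide
      rw [e1, e2] at h
      exact h
    omega

/-- Two perfect central extensions of `G` whose fibre product has small "Schur part" are
isomorphic. -/
theorem l34_unique {L₁ L₂ F : Type*} [Group L₁] [Finite L₁] [Group L₂] [Finite L₂] [Field F]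
    [Fintype F] [DecidableEq F] (hF : Fintype.card F = 4) (h₁ : commutator L₁ = ⊤)
    (h₂ : commutator L₂ = ⊤)
    (hc₁ : Nat.card (Subgroup.center L₁) = 4) (hc₂ : Nat.card (Subgroup.center L₂) = 4)
    (he₁ : ∀ x ∈ Subgroup.center L₁, x * x = 1) (he₂ : ∀ x ∈ Subgroup.center L₂, x * x = 1)
    (e₁ : L₁ ⧸ Subgroup.center L₁ ≃* Matrix.ProjectiveSpecialLinearGroup (Fin 3) F)
    (e₂ : L₂ ⧸ Subgroup.center L₂ ≃* Matrix.ProjectiveSpecialLinearGroup (Fin 3) F) :
    Nonempty (L₁ ≃* L₂) := by
  let π₁ := e₁.toMonoidHom.comp (QuotientGroup.mk' (Subgroup.center L₁))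
  let π₂ := e₂.toMonoidHom.comp (QuotientGroup.mk' (Subgroup.center L₂))
  have s₁ : Function.Surjective π₁ := e₁.surjective.comp (QuotientGroup.mk'_surjective _)
  have s₂ : Function.Surjective π₂ := e₂.surjective.comp (QuotientGroup.mk'_surjective _)
  have k₁ : ∀ a, π₁ a = 1 → a ∈ Subgroup.center L₁ := fun a h =>
    (QuotientGroup.eq_one_iff a).1 (e₁.map_eq_one_iff.1 h)
  have k₂ : ∀ a, π₂ a = 1 → a ∈ Subgroup.center L₂ := fun a h =>
    (QuotientGroup.eq_one_iff a).1 (e₂.map_eq_one_iff.1 h)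
  let P : Subgroup (L₁ × L₂) :=
    (π₁.comp (MonoidHom.fst L₁ L₂)).eqLocus (π₂.comp (MonoidHom.snd L₁ L₂))
  let p₁ : P →* L₁ := (MonoidHom.fst L₁ L₂).comp P.subtype
  let p₂ : P →* L₂ := (MonoidHom.snd L₁ L₂).comp P.subtype
  have hp : ∀ z : P, π₁ (p₁ z) = π₂ (p₂ z) := fun z => z.2
  have hext : ∀ y z : P, p₁ y = p₁ z → p₂ y = p₂ z → y = z := fun y z a b =>
    Subtype.ext (Prod.ext a b)
  have q₁ : Function.Surjective p₁ := fun a => by
    obtain ⟨b, hb⟩ := s₂ (π₁ a)
    exact ⟨⟨(a, b), hb.symm⟩, rfl⟩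
  have q₂ : Function.Surjective p₂ := fun b => by
    obtain ⟨a, ha⟩ := s₁ (π₂ b)
    exact ⟨⟨(a, b), ha⟩, rfl⟩
  have h4 := l34_psl hF (π₁.comp p₁)
    (fun z hz y => hext _ _
      (by rw [map_mul, map_mul]; exact Subgroup.mem_center_iff.1 (k₁ _ hz) _)
      (by rw [map_mul, map_mul]; exact Subgroup.mem_center_iff.1 (k₂ _ (hp z ▸ hz)) _))
    (fun z hz => hext _ _
      (by rw [map_mul, map_one]; exact he₁ _ (k₁ _ hz))
      (by rw [map_mul, map_one]; exact he₂ _ (k₂ _ (hp z ▸ hz))))
    (s₁.comp q₁)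
  have hX := l34_card_split (π₁.comp p₁) (commutator P)
  have hle := Subgroup.card_le_card_group ((commutator P).map (π₁.comp p₁))
  have c₁ := Subgroup.card_eq_card_quotient_mul_card_subgroup (Subgroup.center L₁)
  have c₂ := Subgroup.card_eq_card_quotient_mul_card_subgroup (Subgroup.center L₂)
  rw [hc₁, Nat.card_congr e₁.toEquiv] at c₁
  rw [hc₂, Nat.card_congr e₂.toEquiv] at c₂
  have hXle : Nat.card (commutator P) ≤
      Nat.card (Matrix.ProjectiveSpecialLinearGroup (Fin 3) F) * 4 := by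
    rw [hX, mul_comm]
    exact Nat.mul_le_mul hle h4
  have m₁ : Function.Surjective (p₁.comp (commutator P).subtype) := fun a => by
    have : a ∈ (commutator P).map p₁ := by
      rw [map_commutator_eq, MonoidHom.range_eq_top.2 q₁, ← commutator_def, h₁]
      trivial
    obtain ⟨y, hy, rfl⟩ := this
    exact ⟨⟨y, hy⟩, rfl⟩
  have m₂ : Function.Surjective (p₂.comp (commutator P).subtype) := fun a => by
    have : a ∈ (commutator P).map p₂ := by
      rw [map_commutator_eq, MonoidHom.range_eq_top.2 q₂, ← commutator_def, h₂]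
      trivial
    obtain ⟨y, hy, rfl⟩ := this
    exact ⟨⟨y, hy⟩, rfl⟩
  exact ⟨(MulEquiv.ofBijective _ (m₁.bijective_of_nat_card_le (by omega))).symm.trans
    (MulEquiv.ofBijective _ (m₂.bijective_of_nat_card_le (by omega)))⟩

end CA.Cov
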