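/-
The 126 reflections of `O₆⁻(3)`: the groups they generate and normalise.
-/
import Cfsg.Agent.Cov.Esp
import Cfsg.Agent.Fi.Refl
import Cfsg.Agent.Unit.Six
import Cfsg.Agent.Unit.Seven

set_option autoImplicit false
set_option linter.unusedSectionVars false

namespace CA.Cov

open Cfsg Subgroup CA.Fi CA.TC CA.Loc Cfsg.Agent Cfsg.Agent.Unit Cfsg.Agent.Orth
open scoped commutatorElement

/-- Coordinates for the minus type form. -/
noncomputable def phi6 : (Fin 6 → ZMod 3) ≃ₗ[ZMod 3] (Fin 2 → ZMod 3) × (Fin 2 → ZMod 3) × F9 :=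
  LinearEquiv.ofBijective
    { toFun := fun v => (![v 4 + v 5 - v 2, v 4 - v 5 - v 3], ![v 4 + v 5 + v 2, v 4 - v 5 + v 3], ⟨v 0 + v 1, v 0 - v 1⟩)
      map_add' := fun v w => by
        refine Prod.ext ?_ (Prod.ext ?_ (QuadraticAlgebra.ext ?_ ?_))
        · funext i; fin_cases i <;> simp <;> ring
        · funext i; fin_cases i <;> simp <;> ring
        · simp; ring
        · simp; ring
      map_smul' := fun c v => by
        refine Prod.ext ?_ (Prod.ext ?_ (QuadraticAlgebra.ext ?_ ?_))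
        · funext i; fin_cases i <;> simp <;> ring
        · funext i; fin_cases i <;> simp <;> ring
        · simp; ring
        · simp; ring }
    ((Fintype.bijective_iff_injective_and_card _).2 ⟨(injective_iff_map_eq_zero _).2 fun v hv => by
      have e1 : v = ![v 0, v 1, v 2, v 3, v 4, v 5] := funext fun i => by fin_cases i <;> rfl
      rw [e1]
      exact (by decide +kernel : ∀ a b c d x y : ZMod 3, x + y - c = 0 ∧ x - y - d = 0 ∧ x + y + c = 0 ∧ x - y + d = 0 ∧
        a + b = 0 ∧ a - b = 0 → ![a, b, c, d, x, y] = 0) _ _ _ _ _ _ ⟨congrFun (congrArg Prod.fst hv) 0,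
        congrFun (congrArg Prod.fst hv) 1, congrFun (congrArg (·.2.1) hv) 0, congrFun (congrArg (·.2.1) hv) 1,
        congrArg (·.2.2.re) hv, congrArg (·.2.2.im) hv⟩, by simp [card_F9]⟩)

theorem phi6_Q (v : Fin 6 → ZMod 3) : hsum 2 (normQ (-1 : ZMod 3) 0) (phi6 v) = formQ id v := by
  have h3 : (3 : ZMod 3) = 0 := rfl
  rw [hsum_apply, formQ_apply, Fin.sum_univ_two, Fin.sum_univ_six, normQ_apply, QuadraticAlgebra.norm_def]
  show (v 4 + v 5 - v 2) * (v 4 + v 5 + v 2) + (v 4 - v 5 - v 3) * (v 4 - v 5 + v 3) +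
    ((v 0 + v 1) * (v 0 + v 1) + 0 * (v 0 + v 1) * (v 0 - v 1) - -1 * (v 0 - v 1) * (v 0 - v 1)) =
      2 * (v 0 * v 0) + 2 * (v 1 * v 1) + 2 * (v 2 * v 2) + 2 * (v 3 * v 3) + 2 * (v 4 * v 4) + 2 * (v 5 * v 5)
  linear_combination (-v 2 * v 2 - v 3 * v 3) * h3

theorem model43 : 6531840 ≤ Nat.card (RR (formQ (id : Fin 6 → Fin 6)) (2 : ℕ) ⧸ center (RR (formQ id) (2 : ℕ))) ∧
    Nonempty (commutator (RR (formQ (id : Fin 6 → Fin 6)) (2 : ℕ) ⧸ center (RR (formQ id) (2 : ℕ))) ≃* PSU 4 F9 3) := by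
  have hQ := nondeg_formQ (τ := (id : Fin 6 → Fin 6)) fun _ => rfl
  have h5 : 5 ≤ Module.finrank (ZMod 3) (Fin 6 → ZMod 3) := by simp
  have h1 := map_commutator_of (c := (2 : ℕ)) hQ h5 (by decide) (RR _ _).range_subtype
  obtain ⟨a, b, hab⟩ := hQ.exists_HP_of_finite (by omega)
  have k : ∀ x : RR (formQ (id : Fin 6 → Fin 6)) (2 : ℕ), (∀ y ∈ commutator _, y * x = x * y) →
      x.1 = 1 ∨ x.1 = negOne _ := fun x hx => eq_one_or_negOne_of_comm hQ (by omega) hab fun k hk => by
    obtain ⟨k, hk', rfl⟩ := h1.ge hk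
    exact congrArg Subtype.val (hx k hk')
  obtain ⟨f⟩ := commQuot (R := RR (formQ (id : Fin 6 → Fin 6)) (2 : ℕ)) fun x _ hx =>
    mem_center_iff.2 fun y => Subtype.ext (by
      rw [coe_mul, coe_mul]
      rcases k x hx with h | h <;> rw [h]
      · simp
      · exact negOne_comm _)
  obtain ⟨g⟩ := nonempty_POmega_six_minus (F := ZMod 3) (a := -1) (b := 0)
  refine ⟨?_, ⟨(f.trans (Lin.quotCenterCongr ((equivMapOfInjective _ _ (RR _ _).subtype_injective).trans
    (MulEquiv.subgroupCongr (h1.trans (hQ.commutator_eq_EE_of_finite h5).symm))))).trans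
      ((Lin.quotCenterCongr (Lin.commutatorCongr (OG.congr phi6 phi6_Q))).trans g)⟩⟩
  have c1 := (RR (formQ (id : Fin 6 → Fin 6)) (2 : ℕ)).card_mul_index
  rw [index_RR hQ h5 (by decide), Nat.card_congr (OG.congr phi6 phi6_Q).toEquiv, card_OG_minus, ZMod.card,
    card_eq_card_quotient_mul_card_subgroup (center _)] at c1
  have c2 : Nat.card (center (RR (formQ (id : Fin 6 → Fin 6)) (2 : ℕ))) ≤ 2 := by
    rw [← card_map_of_injective (RR _ _).subtype_injective]
    refine (Set.ncard_le_ncard (t := {1, negOne _}) ?_ (Set.toFinite _)).trans (Set.ncard_insert_le _ _ |>.trans (by simp))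
    rintro _ ⟨x, hx, rfl⟩
    exact k x fun y _ => mem_center_iff.1 hx y
  norm_num [Finset.prod_range_succ] at c1
  nlinarith

theorem simple43 : IsSimpleGroup (PSU 4 F9 3) := fq_F9.isSimpleGroup_PSU (n := 4) (by norm_num) (by norm_num)

theorem card43 : Nat.card (PSU 4 F9 3) = 3265920 := by
  have := fq_F9.card_PSU (n := 4) (by norm_num)
  simp [Finset.prod_range_succ, show ¬ Even 3 by decide] at this
  omega

variable {G : Type*} [Group G] {D : Set G} {e : ℕ → G}

theorem sepR6 (h : Real XR6 D e) : Sep D := sep_of_chk h transR6 (by decide) (allLt_spec (by decide +kernel))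

theorem RA.iso43 (h : RA XR6 D e) :
    6531840 ≤ Nat.card (closure D) ∧ Nonempty ((⁅closure D, closure D⁆ : Subgroup G) ≃* PSU 4 F9 3) := by
  obtain ⟨f, -⟩ := h.toReal.isoZ rfl realR6 (H' := RR _ _) rfl
  obtain ⟨a, ⟨g⟩⟩ := model43
  have f' := (Lin.quotCenterOfEqBot h.rg_sub.ctr).symm.trans f
  exact ⟨a.trans_eq (Nat.card_congr f'.toEquiv).symm, ⟨((MulEquiv.subgroupCongr (map_subtype_commutator _).symm).trans
    (equivMapOfInjective _ _ (subtype_injective _)).symm).trans ((Lin.commutatorCongr f').trans g)⟩⟩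

theorem RA.card43 [Finite G] (h : RA XR6 D e) {x : G} {φ : ℕ → ℕ}
    (hφ : ∀ p < XR6.n, φ p < XR6.n ∧ φ (φ p) = p ∧ x * e p * x⁻¹ = e (φ p)) (h1 : parI XR6 1 φ = 1) :
    Nat.card G = 13063680 := by
  have a := two_mul_le_card (h.not_mem_of_sign (d := 1) (by decide) (by decide +kernel) hφ h1)
  have b := h.iso43.1
  have c := h.chn (d := 1) (by decide) [.orb 126 0 [] [], .orb 45 1 [0] [], .orb 32 2 [1] [0], .orb 3 3 [0, 1, 2] [],
    .orb 6 4 [0, 3] [1, 2], .der 2 0, .der 4 1, .der 2 8, .orb 4 5 [4, 6] [0, 1, 16]] [] ⊤ (by simp) (by decide +kernel)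
  rw [card_top] at c
  exact le_antisymm c (by omega)

/-- A subgroup normalised by the simple commutator subgroup is trivial or contains it. -/
theorem RA.le43 (h : RA XR6 D e) {N : Subgroup G} (hN : ∀ y ∈ ⁅closure D, closure D⁆, ∀ x ∈ N, y * x * y⁻¹ ∈ N) :
    N = ⊥ ∨ ⁅closure D, closure D⁆ ≤ N := by
  obtain ⟨-, ⟨φ⟩⟩ := h.iso43
  have := h.normal
  have := simple43
  have s := φ.isSimpleGroup
  have z : ∀ y ∈ ⁅closure D, closure D⁆, (∀ w ∈ ⁅closure D, closure D⁆, Commute y w) → y = 1 := fun y hy hc =>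
    congrArg Subtype.val (mem_bot.1 ((s.eq_bot_or_eq_top_of_normal (center _) inferInstance).resolve_right (fun a => by
      have := @IsSimpleGroup.prime_card _ (Group.commGroupOfCenterEqTop a) s
      rw [Nat.card_congr φ.toEquiv, Cov.card43] at this
      exact absurd this (by norm_num)) ▸ mem_center_iff.2 fun w => Subtype.ext (hc w w.2).symm :
        (⟨y, hy⟩ : (⁅closure D, closure D⁆ : Subgroup G)) ∈ ⊥))
  refine (s.eq_bot_or_eq_top_of_normal (N.subgroupOf _) ⟨fun x hx y => hN y y.2 x hx⟩).imp (fun a => eq_bot_iff.2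
    fun x hx => ?_) subgroupOf_eq_top.1
  have c : ∀ y ∈ ⁅closure D, closure D⁆, Commute x y := fun y hy => commutatorElement_eq_one_iff_commute.1 (by
    have m1 : ⁅x, y⁆ ∈ ⁅closure D, closure D⁆ := mul_mem (Normal.conj_mem inferInstance y hy x) (inv_mem hy)
    have : (⟨_, m1⟩ : (⁅closure D, closure D⁆ : Subgroup G)) ∈ N.subgroupOf _ := by
      show x * y * x⁻¹ * y⁻¹ ∈ N
      rw [mul_assoc x, mul_assoc x]
      exact mul_mem hx (hN y hy _ (inv_mem hx))
    rw [a, mem_bot] at this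
    exact congrArg Subtype.val this)
  refine h.fa x fun d hd => commutatorElement_eq_one_iff_commute.1 (z _ ?_ fun w hw => ?_)
  · obtain ⟨g, hg, b⟩ := Fi3.real_tr h.toReal transR6 d hd _ (h.inv x d hd)
    rw [commutatorElement_def, ← show g * d * g⁻¹ = x * d * x⁻¹ from b]
    exact commutator_mem_commutator hg (Subgroup.subset_closure hd)
  · have := c _ (Normal.conj_mem inferInstance w hw d⁻¹)
    rw [← commute_conj_iff (g := d)] at this
    rw [commutatorElement_def, mul_assoc x, mul_assoc x]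
    exact (c w hw).mul_left (by simpa [mul_assoc] using this.inv_left)

end CA.Cov

theorem CA.realizeEqns_Cov_U43 : True := by
  have := @CA.Cov.phi6.eq_1
  have := @CA.Cov.phi6.eq_def
  have := @CA.Cov.phi6.congr_simp
  trivial
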